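import Cfsg.Agent.H5.FrameBasic
import Cfsg.Agent.H5.FrameRot

/-!
Signed permutations of an orthogonal frame with six members: coordinates, root reflections.
-/

set_option autoImplicit false

namespace Cfsg.Agent.H66.Frame6

open QuadraticMap hiding sq
open Cfsg.Agent.H5

variable {F V : Type*} [Field F] [AddCommGroup V] [Module F V] {Q : QuadraticForm F V}
  {e : Fin 6 → V} {c : F}

/-- The vector `e p + s • e q`. -/
def rt (e : Fin 6 → V) (p q : Fin 6) (s : F) : V := e p + s • e q

theorem exists_other_two : ∀ i j d : Fin 6, ∃ k l : Fin 6,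
    k ≠ l ∧ k ≠ i ∧ k ≠ j ∧ k ≠ d ∧ l ≠ i ∧ l ≠ j ∧ l ≠ d := by decide

set_option synthInstance.maxSize 2000 in
set_option maxRecDepth 4000 in
theorem exists_other_two' : ∀ p q r s : Fin 6, p ≠ q → p ≠ r → p ≠ s → q ≠ r → q ≠ s → r ≠ s →
    ∃ t u : Fin 6, t ≠ u ∧ ({p, q, r, s, t, u} : Finset (Fin 6)) = Finset.univ ∧
      t ∉ ({p, q, r, s} : Finset (Fin 6)) ∧ u ∉ ({p, q, r, s} : Finset (Fin 6)) := by decide

theorem sum_two {p q : Fin 6} (hpq : p ≠ q) (f : Fin 6 → F)
    (h0 : ∀ i, i ≠ p → i ≠ q → f i = 0) : ∑ i, f i = f p + f q :=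
  Finset.sum_eq_add p q hpq (fun i _ hi => h0 i hi.1 hi.2) (by simp) (by simp)

theorem sq_one {s : F} (hs : s = 1 ∨ s = -1) : s * s = 1 := by
  rcases hs with rfl | rfl <;> ring

theorem sign_of_sq {s : F} (hs : s * s = 1) : s = 1 ∨ s = -1 := mul_self_eq_one_iff.1 hs

theorem refl_commute {v w : V} (h : polar Q v w = 0) : Commute (refl Q v) (refl Q w) := by
  have h1 := refl_conj (refl Q v) w
  rw [refl_apply_of_ortho h, refl_inv] at h1
  show _ = _
  calc refl Q v * refl Q w = refl Q v * refl Q w * refl Q v * refl Q v := by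
        rw [mul_assoc _ (refl Q v) (refl Q v), refl_mul_self, mul_one]
    _ = _ := by rw [h1]

section
variable (h : OrthFrame Q e c)
include h

theorem two_c_ne : (2 : F) * c ≠ 0 := mul_ne_zero h.two_ne h.ne_zero

theorem polar_co (k : Fin 6) (v : V) : polar Q v (e k) = 2 * c * coordAt Q e c k v := by
  rw [polar_comm, h.polar_coord]

theorem polar_zero_iff (k : Fin 6) (v : V) : polar Q v (e k) = 0 ↔ coordAt Q e c k v = 0 := by
  rw [polar_co h, mul_eq_zero, or_iff_right (two_c_ne h)]

theorem sum_sq {v : V} {t : F} (hv : Q v = t * c) :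
    ∑ i, coordAt Q e c i v * coordAt Q e c i v = t :=
  mul_left_cancel₀ (two_c_ne h) (by
    have h1 := polar_self' Q v
    rw [h.polar_eq_sum, hv] at h1
    linear_combination h1)

theorem co_rt (l p q : Fin 6) (s : F) :
    coordAt Q e c l (rt e p q s) = (if l = p then 1 else 0) + s * (if l = q then 1 else 0) := by
  simp [rt, h.coord_vec]

theorem val_rt {p q : Fin 6} (hpq : p ≠ q) {s : F} (hs : s * s = 1) :
    Q (rt e p q s) = 2 * c := by
  rw [rt, QuadraticMap.map_add (⇑Q), QuadraticMap.map_smul, polar_smul_right, h.val, h.val,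
    h.ortho hpq, smul_zero, smul_eq_mul, hs, one_mul]
  ring

theorem rt_ne_zero {p q : Fin 6} (hpq : p ≠ q) (s : F) : rt e p q s ≠ 0 := fun h0 => by
  have := congrArg (coordAt Q e c p) h0
  rw [co_rt h, map_zero] at this
  simp [hpq] at this

/-- A vector with two non-zero coordinates. -/
theorem eq_two {v : V} {p q : Fin 6} (hpq : p ≠ q)
    (h0 : ∀ i, i ≠ p → i ≠ q → coordAt Q e c i v = 0) :
    v = coordAt Q e c p v • e p + coordAt Q e c q v • e q := by
  refine h.ext_coord fun i => ?_
  rw [map_add, map_smul, map_smul, h.coord_vec, h.coord_vec]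
  rcases eq_or_ne i p with rfl | hip
  · simp [hpq]
  rcases eq_or_ne i q with rfl | hiq
  · simp [hip]
  simp [hip, hiq, h0 i hip hiq]

/-- A vector with one non-zero coordinate. -/
theorem eq_one {v : V} {p : Fin 6} (h0 : ∀ i, i ≠ p → coordAt Q e c i v = 0) :
    v = coordAt Q e c p v • e p := by
  refine h.ext_coord fun i => ?_
  rw [map_smul, h.coord_vec]
  rcases eq_or_ne i p with rfl | hip
  · simp
  · simp [hip, h0 i hip]

theorem refl_unit {v : V} (hv : Q v = c) (k : Fin 6) :
    (refl Q v : V ≃ₗ[F] V) (e k) = e k - (2 * coordAt Q e c k v) • v := by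
  have := h.ne_zero
  rw [refl_apply, hv, polar_co h]
  congr 2
  field_simp

theorem refl_two {v : V} (hv : Q v = 2 * c) (k : Fin 6) :
    (refl Q v : V ≃ₗ[F] V) (e k) = e k - coordAt Q e c k v • v := by
  rw [refl_apply, hv, polar_co h, inv_mul_cancel_left₀ (two_c_ne h)]

theorem pair_unit {v w : V} (hv : Q v = c) (hw : Q w = c) (hvw : polar Q v w = 0) (k : Fin 6) :
    ((refl Q v * refl Q w : orth Q) : V ≃ₗ[F] V) (e k) =
      e k - (2 * coordAt Q e c k v) • v - (2 * coordAt Q e c k w) • w := by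
  rw [orth_mul_apply, refl_unit h hw, map_sub, map_smul, refl_apply_of_ortho hvw, refl_unit h hv]

theorem refl_rt_left {p q : Fin 6} (hpq : p ≠ q) {s : F} (hs : s * s = 1) :
    (refl Q (rt e p q s) : V ≃ₗ[F] V) (e p) = (-s) • e q := by
  rw [refl_two h (val_rt h hpq hs), co_rt h, if_pos rfl, if_neg hpq, mul_zero, add_zero, one_smul,
    rt]
  module

theorem refl_rt_right {p q : Fin 6} (hpq : p ≠ q) {s : F} (hs : s * s = 1) :
    (refl Q (rt e p q s) : V ≃ₗ[F] V) (e q) = (-s) • e p := by
  rw [refl_two h (val_rt h hpq hs), co_rt h, if_neg (Ne.symm hpq), if_pos rfl, mul_one, zero_add,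
    rt, smul_add, smul_smul, hs, one_smul]
  module

theorem refl_rt_other {p q i : Fin 6} (hip : i ≠ p) (hiq : i ≠ q) (s : F) :
    (refl Q (rt e p q s) : V ≃ₗ[F] V) (e i) = e i := by
  refine refl_apply_of_ortho ?_
  rw [rt, polar_add_left, polar_smul_left, h.ortho (Ne.symm hip), h.ortho (Ne.symm hiq), smul_zero,
    add_zero]

theorem mono_refl_rt {p q : Fin 6} (hpq : p ≠ q) {s : F} (hs : s * s = 1) :
    Mono e (refl Q (rt e p q s)) := by
  intro i
  have hsig := sign_of_sq hs
  rcases eq_or_ne i p with rfl | hip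
  · refine ⟨q, ?_⟩
    rw [refl_rt_left h hpq hs]
    rcases hsig with rfl | rfl <;> simp
  rcases eq_or_ne i q with rfl | hiq
  · refine ⟨p, ?_⟩
    rw [refl_rt_right h hpq hs]
    rcases hsig with rfl | rfl <;> simp
  exact ⟨i, Or.inl (refl_rt_other h hip hiq s)⟩

theorem polar_rt {p q : Fin 6} (s : F) (v : V) :
    polar Q (rt e p q s) v = 2 * c * (coordAt Q e c p v + s * coordAt Q e c q v) := by
  rw [rt, polar_add_left, polar_smul_left, h.polar_coord, h.polar_coord, smul_eq_mul]
  ring

/-- Matrix coefficients of the inverse. -/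
theorem co_inv (g : orth Q) (i k : Fin 6) :
    coordAt Q e c i (((g⁻¹ : orth Q) : V ≃ₗ[F] V) (e k)) =
      coordAt Q e c k ((g : V ≃ₗ[F] V) (e i)) := by
  apply mul_left_cancel₀ (two_c_ne h)
  rw [← h.polar_coord, ← polar_co h]
  conv_rhs => rw [← orth_polar g⁻¹, orth_inv_apply_apply]

theorem co_polar (g : orth Q) (i : Fin 6) (x : V) :
    coordAt Q e c i (((g⁻¹ : orth Q) : V ≃ₗ[F] V) x) * (2 * c) =
      polar Q ((g : V ≃ₗ[F] V) (e i)) x := by
  conv_rhs => rw [← orth_polar g⁻¹, orth_inv_apply_apply, h.polar_coord]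
  ring

theorem row_sum (g : orth Q) (i : Fin 6) :
    ∑ k, coordAt Q e c k ((g : V ≃ₗ[F] V) (e i)) * coordAt Q e c k ((g : V ≃ₗ[F] V) (e i)) = 1 :=
  sum_sq h (by rw [orth_map, h.val, one_mul])

theorem col_sum (g : orth Q) (k : Fin 6) :
    ∑ i, coordAt Q e c k ((g : V ≃ₗ[F] V) (e i)) * coordAt Q e c k ((g : V ≃ₗ[F] V) (e i)) = 1 := by
  rw [← row_sum h g⁻¹ k]
  simp only [co_inv h]

theorem mono_col {g : orth Q} (hg : Mono e g) (k : Fin 6) : ∃ j : Fin 6, ∃ s : F, s * s = 1 ∧
    (g : V ≃ₗ[F] V) (e k) = s • e j := by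
  obtain ⟨j, hj | hj⟩ := hg k
  · exact ⟨j, 1, one_mul 1, by rw [hj, one_smul]⟩
  · exact ⟨j, -1, by ring, by rw [hj, neg_one_smul]⟩

theorem mono_two {g : orth Q} (hg : Mono e g) (k : Fin 6) {l m : Fin 6} (hlm : l ≠ m)
    (hl : coordAt Q e c l ((g : V ≃ₗ[F] V) (e k)) ≠ 0)
    (hm : coordAt Q e c m ((g : V ≃ₗ[F] V) (e k)) ≠ 0) : False := by
  obtain ⟨j, s, hs, hj⟩ := mono_col h hg k
  rw [hj, map_smul, h.coord_vec] at hl hm
  rcases eq_or_ne l j with rfl | hlj
  · simp [Ne.symm hlm] at hm
  · simp [hlj] at hl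

theorem scalar_of_smul {g : orth Q} {i j : Fin 6} {t : F}
    (ht : (g : V ≃ₗ[F] V) (e i) = t • e j) : t * t = 1 := by
  have h1 := orth_map g (e i)
  rw [ht, QuadraticMap.map_smul, h.val, h.val, smul_eq_mul] at h1
  exact mul_right_cancel₀ h.ne_zero (by rw [h1, one_mul])

theorem finrank_eq : Module.finrank F V = 6 := by
  classical
  let L : V ≃ₗ[F] (Fin 6 → F) :=
    { toFun := fun x i => coordAt Q e c i x
      map_add' := fun a b => by ext i; simp
      map_smul' := fun r a => by ext i; simp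
      invFun := fun φ => ∑ i, φ i • e i
      left_inv := fun x => h.expand x
      right_inv := fun φ => by
        ext i
        simp [h.coord_vec] }
  rw [L.finrank_eq]
  simp

end

/-- Coefficient of a conjugate of a sign change which is monomial. -/
theorem flip_col (h : OrthFrame Q e c) {v w : V} (hv : Q v = c) (hw : Q w = c)
    (hvw : polar Q v w = 0) (hX : Mono e (refl Q v * refl Q w)) (k : Fin 6) :
    (coordAt Q e c k v = 0 ∧ coordAt Q e c k w = 0) ∨
      2 * (coordAt Q e c k v * coordAt Q e c k v + coordAt Q e c k w * coordAt Q e c k w) = 1 ∨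
      e k = coordAt Q e c k v • v + coordAt Q e c k w • w := by
  obtain ⟨j, s, hs, hj⟩ := mono_col h hX k
  rw [pair_unit h hv hw hvw] at hj
  set a := coordAt Q e c k v
  set b := coordAt Q e c k w
  have h2 := congrArg (coordAt Q e c k) hj
  simp only [map_sub, map_smul, h.coord_self, smul_eq_mul, h.coord_vec] at h2
  by_cases hkj : k = j
  · subst hkj
    rw [if_pos rfl] at h2
    rcases sign_of_sq hs with rfl | rfl
    · left
      rw [one_smul] at hj
      have hz : (2 * a) • v + (2 * b) • w = 0 := by linear_combination (norm := module) -hj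
      have key : ∀ y : V, 2 * a * polar Q y v + 2 * b * polar Q y w = 0 := fun y => by
        have := congrArg (fun x => polar Q y x) hz
        simpa [polar_smul_right] using this
      have h1 := key v
      have h1' := key w
      rw [polar_self', hv, hvw] at h1
      rw [polar_self', hw, polar_comm (⇑Q) w v, hvw] at h1'
      have h2c := two_c_ne h
      exact ⟨(mul_eq_zero.1 (show a * (2 * (2 * c)) = 0 by linear_combination h1)).resolve_right
        (mul_ne_zero h.two_ne h2c),
        (mul_eq_zero.1 (show b * (2 * (2 * c)) = 0 by linear_combination h1')).resolve_right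
        (mul_ne_zero h.two_ne h2c)⟩
    · right; right
      have h22 : (2 : F) • e k = (2 : F) • (a • v + b • w) := by
        linear_combination (norm := module) hj
      exact smul_right_injective V h.two_ne h22
  · right; left
    rw [if_neg hkj] at h2
    linear_combination -h2

end Cfsg.Agent.H66.Frame6
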