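import Cfsg.Agent.H66.Frame6.Plane

/-!
Double transpositions of a frame are not fused to sign changes; central involutions of dihedral
groups generated by a sign change and a conjugate of a double transposition.
-/

set_option autoImplicit false

namespace Cfsg.Agent.H66.Frame6

open QuadraticMap hiding sq
open Cfsg.Agent.H5

variable {F V : Type*} [Field F] [AddCommGroup V] [Module F V] {Q : QuadraticForm F V}
  {e : Fin 6 → V} {c : F} {H : Subgroup (orth Q)} [FiniteDimensional F V] [Finite F] [Finite V]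

theorem finite_orth : Finite (orth Q) :=
  Finite.of_injective (fun g : orth Q => ((g : V ≃ₗ[F] V) : V → V)) fun _ _ hfg =>
    H5.orth_ext fun x => congrFun hfg x

theorem flip_apply (h : OrthFrame Q e c) {a b : Fin 6} (hab : a ≠ b) :
    (flipTwo Q e a b : V ≃ₗ[F] V) (e a) = -e a ∧ (flipTwo Q e a b : V ≃ₗ[F] V) (e b) = -e b ∧
      ∀ k, k ≠ a → k ≠ b → (flipTwo Q e a b : V ≃ₗ[F] V) (e k) = e k := by
  refine ⟨?_, ?_, fun k hka hkb => ?_⟩ <;> rw [flipTwo, orth_mul_apply]
  · rw [h.refl_other (Ne.symm hab), h.refl_self]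
  · rw [h.refl_self, map_neg, h.refl_other hab]
  · rw [h.refl_other (Ne.symm hkb), h.refl_other (Ne.symm hka)]

theorem flip_co (h : OrthFrame Q e c) {a b : Fin 6} (hab : a ≠ b) (l : Fin 6) (x : V) :
    coordAt Q e c l ((flipTwo Q e a b : V ≃ₗ[F] V) x) =
      if l = a ∨ l = b then -coordAt Q e c l x else coordAt Q e c l x := by
  obtain ⟨ha, hb, ho⟩ := flip_apply h hab
  conv_lhs => rw [← h.expand x]
  simp only [map_sum, map_smul, smul_eq_mul]
  rw [Finset.sum_eq_single l ?_ (by simp)]
  · by_cases hl : l = a ∨ l = b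
    · rw [if_pos hl]
      rcases hl with rfl | rfl
      · rw [ha, map_neg, h.coord_self]; ring
      · rw [hb, map_neg, h.coord_self]; ring
    · rw [if_neg hl]
      push Not at hl
      rw [ho l hl.1 hl.2, h.coord_self, mul_one]
  · intro k _ hk
    rcases eq_or_ne k a with rfl | hka
    · rw [ha, map_neg, h.coord_other (Ne.symm hk), neg_zero, mul_zero]
    rcases eq_or_ne k b with rfl | hkb
    · rw [hb, map_neg, h.coord_other (Ne.symm hk), neg_zero, mul_zero]
    rw [ho k hka hkb, h.coord_other (Ne.symm hk), mul_zero]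

theorem eq_zero_of_neg (h : OrthFrame Q e c) {x : F} (hx : -x = x) : x = 0 :=
  (mul_eq_zero.1 (show (2 : F) * x = 0 by linear_combination -hx)).resolve_left h.two_ne

/-- Vectors changed in sign by a sign change. -/
theorem supp_of_flip_neg (h : OrthFrame Q e c) {a b : Fin 6} (hab : a ≠ b) {x : V}
    (hx : (flipTwo Q e a b : V ≃ₗ[F] V) x = -x) (l : Fin 6) (hla : l ≠ a) (hlb : l ≠ b) :
    coordAt Q e c l x = 0 := by
  have h1 := congrArg (coordAt Q e c l) hx
  rw [flip_co h hab, if_neg (by simp [hla, hlb]), map_neg] at h1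
  exact eq_zero_of_neg h h1.symm

/-- Vectors fixed by a sign change. -/
theorem supp_of_flip_fix (h : OrthFrame Q e c) {a b : Fin 6} (hab : a ≠ b) {x : V}
    (hx : (flipTwo Q e a b : V ≃ₗ[F] V) x = x) :
    coordAt Q e c a x = 0 ∧ coordAt Q e c b x = 0 := by
  refine ⟨?_, ?_⟩ <;>
  · refine eq_zero_of_neg h ?_
    conv_rhs => rw [← hx]
    rw [flip_co h hab, if_pos (by simp)]

/-- A double transposition of the frame is not fused to a sign change. -/
theorem not_fused (hB : Base Q e c H) {g : orth Q} (hg : g ∈ H) {p q r s a b : Fin 6} (hpq : p ≠ q)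
    (hpr : p ≠ r) (hps : p ≠ s) (hqr : q ≠ r) (hqs : q ≠ s) (hrs : r ≠ s) (hab : a ≠ b) {σ τ : F}
    (hσ : σ * σ = 1) (hτ : τ * τ = 1)
    (hc : g * (refl Q (rt e p q σ) * refl Q (rt e r s τ)) * g⁻¹ = flipTwo Q e a b) : False := by
  classical
  have h := hB.frame
  have h2 := h.two_ne
  have : Finite (orth Q) := finite_orth
  set f := rt e p q σ with hf
  set f' := rt e r s τ with hf'
  set W := refl Q f * refl Q f' with hW
  have hWg : ∀ x : V, (flipTwo Q e a b : V ≃ₗ[F] V) ((g : V ≃ₗ[F] V) x) =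
      (g : V ≃ₗ[F] V) ((W : V ≃ₗ[F] V) x) := fun x => by
    rw [← hc, orth_mul_apply, orth_mul_apply, orth_inv_apply_apply]
  have hff' : polar Q f f' = 0 := by
    rw [polar_rt h, hf', co_rt h, co_rt h]; simp [hpr, hps, hqr, hqs]
  have hqf : Q f ≠ 0 := by rw [hf, val_rt h hpq hσ]; exact two_c_ne h
  have hWf : (W : V ≃ₗ[F] V) f = -f := by
    rw [hW, orth_mul_apply, refl_apply_of_ortho (v := f') (by rw [polar_comm]; exact hff'), refl_apply_self hqf]
  have hWf' : (W : V ≃ₗ[F] V) f' = -f' := by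
    rw [hW, orth_mul_apply, refl_apply_self (by rw [hf', val_rt h hrs hτ]; exact two_c_ne h),
      map_neg, refl_apply_of_ortho hff']
  obtain ⟨t, u, htu, huniv, ht, hu⟩ := exists_other_two' p q r s hpq hpr hps hqr hqs hrs
  simp only [Finset.mem_insert, Finset.mem_singleton, not_or] at ht hu
  obtain ⟨htp, htq, htr, hts⟩ := ht
  obtain ⟨hup, huq, hur, hus⟩ := hu
  have hWo : ∀ k, k ≠ p → k ≠ q → k ≠ r → k ≠ s → (W : V ≃ₗ[F] V) (e k) = e k := fun k h1 h2 h3 h4 => by
    rw [hW, orth_mul_apply, refl_rt_other h h3 h4, refl_rt_other h h1 h2]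
  have hgt : ∀ k, k ≠ p → k ≠ q → k ≠ r → k ≠ s → coordAt Q e c a ((g : V ≃ₗ[F] V) (e k)) = 0 ∧
      coordAt Q e c b ((g : V ≃ₗ[F] V) (e k)) = 0 := fun k h1 h2 h3 h4 =>
    supp_of_flip_fix h hab (by rw [hWg, hWo k h1 h2 h3 h4])
  have hnm : ¬ Mono e g := by
    intro hm
    obtain ⟨π, σs, hss, hπ⟩ := hm.exists_perm h
    have hin : ∀ (k k' : Fin 6) (κ : F), k ≠ k' → κ * κ = 1 → (W : V ≃ₗ[F] V) (rt e k k' κ) = -rt e k k' κ →
        (π k = a ∨ π k = b) ∧ (π k' = a ∨ π k' = b) := by
      intro k k' κ hkk hκ hWk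
      have hss0 : ∀ i, σs i ≠ 0 := fun i => by rcases hss i with h' | h' <;> rw [h'] <;> simp
      have hz := supp_of_flip_neg h hab (x := (g : V ≃ₗ[F] V) (rt e k k' κ))
        (by rw [hWg, hWk, map_neg])
      have hco : ∀ l, coordAt Q e c l ((g : V ≃ₗ[F] V) (rt e k k' κ)) =
          (if l = π k then σs k else 0) + κ * (if l = π k' then σs k' else 0) := fun l => by
        simp [rt, hπ, h.coord_vec]
      constructor <;> by_contra hcon <;> push Not at hcon
      · have := hz _ hcon.1 hcon.2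
        rw [hco, if_pos rfl, if_neg (fun he => hkk (π.injective he)), mul_zero, add_zero] at this
        exact hss0 k this
      · have := hz _ hcon.1 hcon.2
        rw [hco, if_pos rfl, if_neg (fun he => hkk (π.injective he).symm), zero_add] at this
        exact mul_ne_zero (left_ne_zero_of_mul_eq_one hκ) (hss0 k') this
    obtain ⟨h1, h1'⟩ := hin p q σ hpq hσ hWf
    obtain ⟨h3, -⟩ := hin r s τ hrs hτ hWf'
    rcases h1 with h1 | h1 <;> rcases h1' with h1' | h1' <;> rcases h3 with h3 | h3 <;>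
      first
        | exact hpq (π.injective (h1.trans h1'.symm))
        | exact hpr (π.injective (h1.trans h3.symm))
        | exact hqr (π.injective (h1'.trans h3.symm))
  set X := g * flipTwo Q e t u * g⁻¹ with hX
  have hXH : X ∈ H := mul_mem (mul_mem hg (flip_mem' hB t u)) (inv_mem hg)
  have hXe : X = refl Q ((g : V ≃ₗ[F] V) (e t)) * refl Q ((g : V ≃ₗ[F] V) (e u)) := conj_flip g t u
  have hXa : ∀ k, k = a ∨ k = b → (X : V ≃ₗ[F] V) (e k) = e k := fun k hk => by
    obtain ⟨e1, e2⟩ : coordAt Q e c k ((g : V ≃ₗ[F] V) (e t)) = 0 ∧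
        coordAt Q e c k ((g : V ≃ₗ[F] V) (e u)) = 0 := by
      rcases hk with rfl | rfl
      exacts [⟨(hgt t htp htq htr hts).1, (hgt u hup huq hur hus).1⟩,
        ⟨(hgt t htp htq htr hts).2, (hgt u hup huq hur hus).2⟩]
    rw [hXe, orth_mul_apply, refl_apply_of_ortho ((polar_zero_iff h k _).2 e2),
      refl_apply_of_ortho ((polar_zero_iff h k _).2 e1)]
  have hXm : Mono e X := hB.fix X hXH a (hXa a (Or.inl rfl))
  have hXX : X * X = 1 := by
    rw [hX, flipTwo, show g * (refl Q (e t) * refl Q (e u)) * g⁻¹ * (g * (refl Q (e t) * refl Q (e u)) * g⁻¹) =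
      g * (refl Q (e t) * (refl Q (e u) * refl Q (e t)) * refl Q (e u)) * g⁻¹ by group,
      ← h.flip_comm t u, ← mul_assoc (refl Q (e t)), refl_mul_self, one_mul, refl_mul_self, mul_one,
      mul_inv_cancel]
  set z : Fin 6 → V := fun k => ((g⁻¹ : orth Q) : V ≃ₗ[F] V) (e k) with hz
  have hXg : ∀ x : V, (X : V ≃ₗ[F] V) ((g : V ≃ₗ[F] V) x) =
      (g : V ≃ₗ[F] V) ((flipTwo Q e t u : V ≃ₗ[F] V) x) := fun x => by
    rw [hX, orth_mul_apply, orth_mul_apply, orth_inv_apply_apply]
  by_cases hout : ∃ k, k ≠ a ∧ k ≠ b ∧ ∃ j : Fin 6, ∃ κ : F, κ * κ = 1 ∧ j ≠ k ∧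
      (X : V ≃ₗ[F] V) (e k) = κ • e j
  · obtain ⟨k, hka, hkb, j, κ, hκ, hjk, hXk⟩ := hout
    have hXj : (X : V ≃ₗ[F] V) (e j) = κ • e k := by
      have h1 := congrArg (X : V ≃ₗ[F] V) hXk
      rw [← orth_mul_apply, hXX, map_smul] at h1
      calc (X : V ≃ₗ[F] V) (e j) = (κ * κ) • (X : V ≃ₗ[F] V) (e j) := by rw [hκ, one_smul]
        _ = κ • e k := by rw [← smul_smul, ← h1]; rfl
    have hja : j ≠ a ∧ j ≠ b := by
      refine ⟨fun he => ?_, fun he => ?_⟩
      · rw [he, hXa a (Or.inl rfl)] at hXj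
        have := congrArg (coordAt Q e c a) hXj
        rw [h.coord_self, map_smul, h.coord_other (Ne.symm hka), smul_zero] at this
        exact one_ne_zero this
      · rw [he, hXa b (Or.inr rfl)] at hXj
        have := congrArg (coordAt Q e c b) hXj
        rw [h.coord_self, map_smul, h.coord_other (Ne.symm hkb), smul_zero] at this
        exact one_ne_zero this
    set rp := rt e k j κ with hrp
    set rm := rt e k j (-κ) with hrm
    have hXp : (X : V ≃ₗ[F] V) rp = rp := by
      rw [hrp, rt, map_add, map_smul, hXk, hXj, smul_smul, hκ, one_smul, add_comm]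
    have hXn : (X : V ≃ₗ[F] V) rm = -rm := by
      rw [hrm, rt, map_add, map_smul, hXk, hXj, smul_smul, neg_mul, hκ]; module
    set w := ((g⁻¹ : orth Q) : V ≃ₗ[F] V) rp with hw
    set w' := ((g⁻¹ : orth Q) : V ≃ₗ[F] V) rm with hw'
    have hgw : (g : V ≃ₗ[F] V) w = rp := orth_apply_inv_apply g rp
    have hgw' : (g : V ≃ₗ[F] V) w' = rm := orth_apply_inv_apply g rm
    have hgi : Function.Injective (g : V ≃ₗ[F] V) := (g : V ≃ₗ[F] V).injective
    have hwtu : coordAt Q e c t w = 0 ∧ coordAt Q e c u w = 0 :=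
      supp_of_flip_fix h htu (hgi (by rw [← hXg, hgw, hXp]))
    have hw'tu : ∀ l, l ≠ t → l ≠ u → coordAt Q e c l w' = 0 :=
      supp_of_flip_neg h htu (hgi (by rw [← hXg, hgw', hXn, map_neg, hgw']))
    have hWw : (W : V ≃ₗ[F] V) w = w := hgi (by
      rw [← hWg, hgw, hrp, rt, map_add, map_smul, (flip_apply h hab).2.2 k hka hkb,
        (flip_apply h hab).2.2 j hja.1 hja.2])
    have hfw : ∀ v : V, (W : V ≃ₗ[F] V) v = -v → polar Q v w = 0 := fun v hv => by
      have h1 := orth_polar W v w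
      rw [hv, hWw, polar_neg_left] at h1
      exact eq_zero_of_neg h h1
    have hwp : coordAt Q e c p w + σ * coordAt Q e c q w = 0 :=
      (mul_eq_zero.1 ((polar_rt h σ w).symm.trans (hfw f hWf))).resolve_left (two_c_ne h)
    have hwr : coordAt Q e c r w + τ * coordAt Q e c s w = 0 :=
      (mul_eq_zero.1 ((polar_rt h τ w).symm.trans (hfw f' hWf'))).resolve_left (two_c_ne h)
    -- two elements commuting with `W`
    have hA : ∀ A ∈ H, Mono e A → (A : V ≃ₗ[F] V) w' = w' → A * W = W * A →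
        (A : V ≃ₗ[F] V) w = w ∨ (A : V ≃ₗ[F] V) w = -w := by
      intro A hAH _ hAw' hAW
      have hBH := mul_mem (mul_mem hg hAH) (inv_mem hg)
      have hBm : Mono e (g * A * g⁻¹) := mono_of_commute hB hBH hab (by
        rw [← hc]
        calc g * A * g⁻¹ * (g * W * g⁻¹) = g * (A * W) * g⁻¹ := by group
          _ = g * W * g⁻¹ * (g * A * g⁻¹) := by rw [hAW]; group)
      set B := g * A * g⁻¹ with hBd
      have hBr : ∀ x, (B : V ≃ₗ[F] V) ((g : V ≃ₗ[F] V) x) = (g : V ≃ₗ[F] V) ((A : V ≃ₗ[F] V) x) :=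
        fun x => by rw [hBd, orth_mul_apply, orth_mul_apply, orth_inv_apply_apply]
      have hBn : (B : V ≃ₗ[F] V) rm = rm := by
        rw [← hgw', hBr, hAw']
      obtain ⟨i₁, s₁, hs₁, hB1⟩ := mono_col h hBm k
      obtain ⟨i₂, s₂, hs₂, hB2⟩ := mono_col h hBm j
      have hs10 := left_ne_zero_of_mul_eq_one hs₁
      have hs20 := left_ne_zero_of_mul_eq_one hs₂
      have hκ0 := left_ne_zero_of_mul_eq_one hκ
      have hne12 : i₁ ≠ i₂ := by
        intro he
        have h1 := orth_polar B (e k) (e j)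
        rw [hB1, hB2, he, h.ortho (Ne.symm hjk), polar_smul_left, polar_smul_right, polar_self',
          h.val, smul_eq_mul, smul_eq_mul] at h1
        exact mul_ne_zero hs10 (mul_ne_zero hs20 (two_c_ne h)) h1
      have hl : ∀ l, (if l = i₁ then s₁ else 0) + (-κ) * (if l = i₂ then s₂ else 0) =
          (if l = k then 1 else 0) + (-κ) * (if l = j then 1 else 0) := fun l => by
        have h1 := congrArg (coordAt Q e c l) hBn
        rw [hrm, rt, map_add, map_smul, hB1, hB2] at h1
        simp only [map_add, map_smul, h.coord_vec, smul_eq_mul, mul_ite, mul_one, mul_zero] at h1 ⊢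
        exact h1
      have hk1 := hl i₁
      rw [if_pos rfl, if_neg hne12, mul_zero, add_zero] at hk1
      have hBp : (B : V ≃ₗ[F] V) rp = rp ∨ (B : V ≃ₗ[F] V) rp = -rp := by
        rcases eq_or_ne i₁ k with h1k | h1k
        · rw [h1k, if_pos rfl, if_neg (Ne.symm hjk), mul_zero, add_zero] at hk1
          have hk2 := hl i₂
          rw [if_neg (Ne.symm hne12), if_pos rfl, if_neg (fun he => hne12 (h1k.trans he.symm)),
            zero_add, zero_add] at hk2
          have h2j : i₂ = j := by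
            by_contra hc'
            rw [if_neg hc', mul_zero] at hk2
            exact mul_ne_zero (neg_ne_zero.2 hκ0) hs20 hk2
          rw [if_pos h2j] at hk2
          left
          rw [hrp, rt, map_add, map_smul, hB1, hB2, h1k, h2j, hk1,
            mul_left_cancel₀ (neg_ne_zero.2 hκ0) hk2, one_smul, one_smul]
        · have h1j : i₁ = j := by
            by_contra hc'
            rw [if_neg h1k, if_neg hc', mul_zero, add_zero] at hk1
            exact hs10 hk1
          rw [if_neg h1k, if_pos h1j, zero_add, mul_one] at hk1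
          have hk2 := hl i₂
          rw [if_neg (Ne.symm hne12), if_pos rfl, if_neg (fun he : i₂ = j => hne12 (h1j.trans he.symm)),
            mul_zero, add_zero, zero_add] at hk2
          have h2k : i₂ = k := by
            by_contra hc'
            rw [if_neg hc'] at hk2
            exact mul_ne_zero (neg_ne_zero.2 hκ0) hs20 hk2
          rw [if_pos h2k] at hk2
          right
          rw [hrp, rt, map_add, map_smul, hB1, hB2, h1j, h2k, hk1, smul_smul,
            show κ * s₂ = -1 by linear_combination -hk2]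
          module
      rcases hBp with hBp | hBp
      · exact Or.inl (hgi (by rw [← hBr, hgw, hBp]))
      · exact Or.inr (hgi (by rw [← hBr, hgw, hBp, map_neg, hgw]))
    have hA1 : (flipTwo Q e p q : V ≃ₗ[F] V) w' = w' := by
      refine h.ext_coord fun l => ?_
      rw [flip_co h hpq]
      split_ifs with hl
      · rcases hl with rfl | rfl
        · rw [hw'tu l (Ne.symm htp) (Ne.symm hup), neg_zero]
        · rw [hw'tu l (Ne.symm htq) (Ne.symm huq), neg_zero]
      · rfl
    obtain ⟨hpa', hqa', hoa'⟩ := flip_apply h hpq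
    have hAW : flipTwo Q e p q * W = W * flipTwo Q e p q := by
      have key : flipTwo Q e p q * W * (flipTwo Q e p q)⁻¹ = W := by
        rw [hW, show flipTwo Q e p q * (refl Q f * refl Q f') * (flipTwo Q e p q)⁻¹ =
          (flipTwo Q e p q * refl Q f * (flipTwo Q e p q)⁻¹) *
            (flipTwo Q e p q * refl Q f' * (flipTwo Q e p q)⁻¹) by group, refl_conj, refl_conj]
        rw [show (flipTwo Q e p q : V ≃ₗ[F] V) f = (-1 : F) • f by
            rw [hf, rt, map_add, map_smul, hpa', hqa']; module,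
          show (flipTwo Q e p q : V ≃ₗ[F] V) f' = f' by
            rw [hf', rt, map_add, map_smul, hoa' r (Ne.symm hpr) (Ne.symm hqr),
              hoa' s (Ne.symm hps) (Ne.symm hqs)],
          refl_smul (by simp : (-1 : F) ≠ 0)]
      exact mul_inv_eq_iff_eq_mul.1 key
    have hr1 := hA _ (flip_mem' hB p q) (h.mono_flip p q) hA1 hAW
    set κ' := -(σ * τ)
    have hκ' : κ' * κ' = 1 := by linear_combination (τ * τ) * hσ + hτ
    set f₁ := rt e p r (-1 : F) with hf₁
    set f₂ := rt e q s κ' with hf₂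
    obtain ⟨hBH, hBm⟩ := rt_pair_mem hB hpr hqs (σ := (-1 : F)) (by ring) hκ'
    set B := refl Q f₁ * refl Q f₂ with hBd
    have hBp : (B : V ≃ₗ[F] V) (e p) = e r := by
      rw [hBd, orth_mul_apply, hf₂, refl_rt_other h hpq hps, hf₁, refl_rt_left h hpr (by ring),
        neg_neg, one_smul]
    have hBq : (B : V ≃ₗ[F] V) (e q) = (-κ') • e s := by
      rw [hBd, orth_mul_apply, hf₂, refl_rt_left h hqs hκ', map_smul, hf₁,
        refl_rt_other h (Ne.symm hps) (Ne.symm hrs)]
    have hBr : (B : V ≃ₗ[F] V) (e r) = e p := by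
      rw [hBd, orth_mul_apply, hf₂, refl_rt_other h (Ne.symm hqr) hrs, hf₁,
        refl_rt_right h hpr (by ring), neg_neg, one_smul]
    have hBs : (B : V ≃ₗ[F] V) (e s) = (-κ') • e q := by
      rw [hBd, orth_mul_apply, hf₂, refl_rt_right h hqs hκ', map_smul, hf₁,
        refl_rt_other h (Ne.symm hpq) hqr]
    have hBo : ∀ l, l = t ∨ l = u → (B : V ≃ₗ[F] V) (e l) = e l := fun l hl => by
      rcases hl with rfl | rfl <;>
        rw [hBd, orth_mul_apply, hf₂, refl_rt_other h (by assumption) (by assumption), hf₁,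
          refl_rt_other h (by assumption) (by assumption)]
    have hB1' : (B : V ≃ₗ[F] V) w' = w' := by
      rw [eq_two h htu hw'tu, map_add, map_smul, map_smul, hBo t (Or.inl rfl), hBo u (Or.inr rfl)]
    have hBW : B * W = W * B := by
      have key : B * W * B⁻¹ = W := by
        rw [hW, show B * (refl Q f * refl Q f') * B⁻¹ = (B * refl Q f * B⁻¹) * (B * refl Q f' * B⁻¹) by
          group, refl_conj, refl_conj]
        rw [show (B : V ≃ₗ[F] V) f = f' by
            rw [hf, hf', rt, rt, map_add, map_smul, hBp, hBq, smul_smul,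
              show σ * -κ' = τ by linear_combination τ * hσ],
          show (B : V ≃ₗ[F] V) f' = f by
            rw [hf, hf', rt, rt, map_add, map_smul, hBr, hBs, smul_smul,
              show τ * -κ' = σ by linear_combination σ * hτ]]
        exact (refl_commute hff').eq.symm
      exact mul_inv_eq_iff_eq_mul.1 key
    have hr2 := hA B hBH hBm hB1' hBW
    have hwexp : w = coordAt Q e c p w • e p + coordAt Q e c q w • e q +
        (coordAt Q e c r w • e r + coordAt Q e c s w • e s) := by
      conv_lhs => rw [← h.expand w, ← huniv]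
      rw [Finset.sum_insert (by simp [hpq, hpr, hps, Ne.symm htp, Ne.symm hup]),
        Finset.sum_insert (by simp [hqr, hqs, Ne.symm htq, Ne.symm huq]),
        Finset.sum_insert (by simp [hrs, Ne.symm htr, Ne.symm hur]),
        Finset.sum_insert (by simp [Ne.symm hts, Ne.symm hus]),
        Finset.sum_insert (by simp [htu]), Finset.sum_singleton, hwtu.1, hwtu.2, zero_smul,
        zero_smul, add_zero, add_zero]
      module
    have hPR : coordAt Q e c p w = 0 ∨ coordAt Q e c r w = 0 := by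
      rcases hr1 with h1 | h1
      · left
        have := congrArg (coordAt Q e c p) h1
        rw [flip_co h hpq, if_pos (Or.inl rfl)] at this
        exact eq_zero_of_neg h this
      · right
        have := congrArg (coordAt Q e c r) h1
        rw [flip_co h hpq, if_neg (by simp [Ne.symm hpr, Ne.symm hqr]), map_neg] at this
        exact eq_zero_of_neg h this.symm
    have hBw : coordAt Q e c r ((B : V ≃ₗ[F] V) w) = coordAt Q e c p w := by
      conv_lhs => rw [hwexp]
      simp [hBp, hBq, hBr, hBs, h.coord_vec, Ne.symm hpr, hrs, Ne.symm hqr]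
    have hPR' : coordAt Q e c p w = coordAt Q e c r w ∨ coordAt Q e c p w = -coordAt Q e c r w := by
      rcases hr2 with h2' | h2'
      · left; rw [← hBw, h2']
      · right; rw [← hBw, h2', map_neg]
    have hP0 : coordAt Q e c p w = 0 := by
      rcases hPR with h1 | h1
      · exact h1
      · rcases hPR' with h2' | h2' <;> simp [h2', h1]
    have hR0 : coordAt Q e c r w = 0 := by
      rcases hPR' with h2' | h2'
      · rw [← h2', hP0]
      · exact neg_eq_zero.1 (h2'.symm.trans hP0)
    rw [hP0, zero_add] at hwp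
    rw [hR0, zero_add] at hwr
    have hQ0 := (mul_eq_zero.1 hwp).resolve_left (left_ne_zero_of_mul_eq_one hσ)
    have hS0 := (mul_eq_zero.1 hwr).resolve_left (left_ne_zero_of_mul_eq_one hτ)
    have hw0 : w = 0 := by
      rw [hwexp, hP0, hR0, hQ0, hS0]
      simp
    exact rt_ne_zero h (Ne.symm hjk) κ (by rw [← hrp, ← hgw, hw0, map_zero])
  · push Not at hout
    have hdiag : ∀ k, coordAt Q e c k ((g : V ≃ₗ[F] V) (e t)) ≠ 0 ∨
        coordAt Q e c k ((g : V ≃ₗ[F] V) (e u)) ≠ 0 →
        k ≠ a ∧ k ≠ b ∧ ∀ l, l ≠ t → l ≠ u → coordAt Q e c l (z k) = 0 := by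
      intro k hk
      have hka : k ≠ a := fun he => by
        subst he
        exact hk.elim (fun h' => h' (hgt t htp htq htr hts).1) (fun h' => h' (hgt u hup huq hur hus).1)
      have hkb : k ≠ b := fun he => by
        subst he
        exact hk.elim (fun h' => h' (hgt t htp htq htr hts).2) (fun h' => h' (hgt u hup huq hur hus).2)
      obtain ⟨j, κ, hκ, hj⟩ := mono_col h hXm k
      have hjk : j = k := by
        by_contra hne
        exact hout k hka hkb j κ hκ hne hj
      rw [hjk] at hj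
      have hgz : (g : V ≃ₗ[F] V) (z k) = e k := orth_apply_inv_apply g (e k)
      have hgi : Function.Injective (g : V ≃ₗ[F] V) := (g : V ≃ₗ[F] V).injective
      rcases sign_of_sq hκ with rfl | rfl
      · exfalso
        rw [one_smul] at hj
        have h1 := supp_of_flip_fix h htu (x := z k) (hgi (by rw [← hXg, hgz, hj]))
        simp only [hz, co_inv h] at h1
        exact hk.elim (fun h' => h' h1.1) (fun h' => h' h1.2)
      · rw [neg_one_smul] at hj
        exact ⟨hka, hkb, supp_of_flip_neg h htu (hgi (by rw [← hXg, hgz, hj, map_neg, hgz]))⟩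
    obtain ⟨k₁, hk₁⟩ : ∃ k, coordAt Q e c k ((g : V ≃ₗ[F] V) (e t)) ≠ 0 := by
      by_contra hc'
      push Not at hc'
      have := row_sum h g t
      simp [hc'] at this
    obtain ⟨k₂, hk21, hk₂⟩ : ∃ k, k ≠ k₁ ∧ coordAt Q e c k ((g : V ≃ₗ[F] V) (e t)) ≠ 0 := by
      by_contra hc'
      push Not at hc'
      exact hnm (mono_of_map hB hg (i := t) (j := k₁) (eq_one h hc'))
    obtain ⟨-, -, hz1⟩ := hdiag k₁ (Or.inl hk₁)
    obtain ⟨-, -, hz2⟩ := hdiag k₂ (Or.inl hk₂)
    exact hnm (by simpa using Mono.inv h (mono_of_planes hB (inv_mem hg) (Ne.symm hk21) htu hz1 hz2))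

/-- Vectors changed in sign by two reflections. -/
theorem mem_of_pair_neg (h : OrthFrame Q e c) {v w x : V}
    (hx : ((refl Q v * refl Q w : orth Q) : V ≃ₗ[F] V) x = -x) :
    x ∈ Submodule.span F ({v, w} : Set V) := by
  rw [orth_mul_apply, refl_apply Q w, map_sub, map_smul, refl_apply Q v, refl_apply Q v] at hx
  set A := (Q v)⁻¹ * polar Q v x
  set B := (Q w)⁻¹ * polar Q w x
  set D := (Q v)⁻¹ * polar Q v w
  have h2x : (2 : F) • x = (A - B * D) • v + B • w := by
    linear_combination (norm := module) hx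
  rw [show x = (2 : F)⁻¹ • ((2 : F) • x) by rw [smul_smul, inv_mul_cancel₀ h.two_ne, one_smul], h2x]
  exact Submodule.smul_mem _ _ (add_mem (Submodule.smul_mem _ _ (Submodule.subset_span (by simp)))
    (Submodule.smul_mem _ _ (Submodule.subset_span (by simp))))

/-- An isometry maps at most two frame vectors into the span of two vectors. -/
theorem no_three (h : OrthFrame Q e c) (g : orth Q) (v w : V) {i j k : Fin 6} (hij : i ≠ j)
    (hik : i ≠ k) (hjk : j ≠ k)
    (hsp : ∀ l, l = i ∨ l = j ∨ l = k → (g : V ≃ₗ[F] V) (e l) ∈ Submodule.span F ({v, w} : Set V)) :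
    False := by
  classical
  set f : Fin 3 → V := fun l => (g : V ≃ₗ[F] V) (e (![i, j, k] l))
  have hinj : Function.Injective (![i, j, k] : Fin 3 → Fin 6) := by
    intro x y hxy
    fin_cases x <;> fin_cases y <;> simp_all
  have hmem : ∀ l, f l ∈ Submodule.span F ({v, w} : Set V) := fun l => hsp _ (by fin_cases l <;> simp)
  have hli : LinearIndependent F f := by
    rw [Fintype.linearIndependent_iff]
    intro a ha l
    have h1 := congrArg (fun x => polar Q ((g : V ≃ₗ[F] V) (e (![i, j, k] l))) x) ha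
    simp only [polar_zero_right] at h1
    rw [← QuadraticMap.polarBilin_apply_apply, map_sum,
      Finset.sum_eq_single l (fun m _ hm => by
        rw [map_smul, QuadraticMap.polarBilin_apply_apply, orth_polar,
          h.ortho (fun he => hm (hinj he).symm), smul_zero]) (by simp),
      map_smul, QuadraticMap.polarBilin_apply_apply, polar_self', orth_map, h.val, smul_eq_mul] at h1
    exact (mul_eq_zero.1 h1).resolve_right (two_c_ne h)
  have hle := Submodule.finrank_mono (show Submodule.span F (Set.range f) ≤ Submodule.span F {v, w} from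
    Submodule.span_le.2 (by rintro _ ⟨l, rfl⟩; exact hmem l))
  rw [finrank_span_eq_card hli, Fintype.card_fin] at hle
  have h2 : Module.finrank F (Submodule.span F ({v, w} : Set V)) ≤ 2 := by
    rw [Submodule.span_insert]
    refine (Submodule.finrank_add_le_finrank_add_finrank _ _).trans ?_
    have h5 : ∀ y : V, Module.finrank F (Submodule.span F {y}) ≤ 1 := fun y => by
      simpa using finrank_span_le_card ({y} : Set V)
    have := h5 v; have := h5 w; omega
  omega

theorem conj_pow_of_odd {G : Type*} [Group G] {a b : G} (ha : a * a = 1) (hb : b * b = 1) {j : ℕ}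
    (hj : (a * b) ^ (2 * j + 1) = 1) : (a * b) ^ j * a * ((a * b) ^ j)⁻¹ = b := by
  have hflip : ∀ k : ℕ, a * (a * b) ^ k = (b * a) ^ k * a := by
    intro k
    induction k with
    | zero => simp
    | succ k ih =>
      rw [pow_succ, ← mul_assoc, ih, pow_succ]
      simp only [mul_assoc]
      rw [← mul_assoc a a b, ha, one_mul, mul_one]
  have hinv : ((a * b) ^ j)⁻¹ = (b * a) ^ j := by
    rw [← inv_pow, mul_inv_rev, inv_eq_of_mul_eq_one_right ha, inv_eq_of_mul_eq_one_right hb]
  have hinv' : ((a * b) ^ j)⁻¹ = (a * b) ^ j * (a * b) := inv_eq_of_mul_eq_one_right (by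
    rw [← mul_assoc, ← pow_add, ← pow_succ, ← two_mul, hj])
  calc (a * b) ^ j * a * ((a * b) ^ j)⁻¹ = (a * b) ^ j * (a * (a * b) ^ j) * (a * b) := by
        rw [hinv']; group
    _ = (a * b) ^ j * ((a * b) ^ j)⁻¹ * a * (a * b) := by rw [hflip, hinv]; group
    _ = b := by rw [mul_inv_cancel, one_mul, ← mul_assoc, ha, one_mul]

/-- A sign change and a conjugate of a double transposition have a common central involution
other than `±1`. -/
theorem exists_central (hB : Base Q e c H) {g : orth Q} (hg : g ∈ H) {p q r s a b : Fin 6}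
    (hpq : p ≠ q) (hpr : p ≠ r) (hps : p ≠ s) (hqr : q ≠ r) (hqs : q ≠ s) (hrs : r ≠ s)
    (hab : a ≠ b) {σ τ : F} (hσ : σ * σ = 1) (hτ : τ * τ = 1) :
    ∃ z ∈ H, Mono e z ∧ z * z = 1 ∧ z ≠ 1 ∧ (∃ i, (z : V ≃ₗ[F] V) (e i) ≠ -e i) ∧
      z * flipTwo Q e a b = flipTwo Q e a b * z ∧
      z * (g * (refl Q (rt e p q σ) * refl Q (rt e r s τ)) * g⁻¹) =
        g * (refl Q (rt e p q σ) * refl Q (rt e r s τ)) * g⁻¹ * z := by
  have h := hB.frame
  set W := refl Q (rt e p q σ) * refl Q (rt e r s τ) with hW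
  set x := g * W * g⁻¹ with hx
  set u := flipTwo Q e a b with hu
  have hff : polar Q (rt e p q σ) (rt e r s τ) = 0 := by
    rw [polar_rt h, co_rt h, co_rt h]; simp [hpr, hps, hqr, hqs]
  have hW2 : W * W = 1 := by
    rw [hW, mul_assoc, ← mul_assoc (refl Q (rt e r s τ)), ← (refl_commute hff).eq, mul_assoc,
      refl_mul_self, mul_one, refl_mul_self]
  have hx2 : x * x = 1 := by
    rw [hx, show g * W * g⁻¹ * (g * W * g⁻¹) = g * (W * W) * g⁻¹ by group, hW2]; group
  have hu2 : u * u = 1 := by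
    rw [hu, flipTwo, mul_assoc, ← mul_assoc (refl Q (e b)), ← h.flip_comm a b, mul_assoc,
      refl_mul_self, mul_one, refl_mul_self]
  have hxH : x ∈ H := mul_mem (mul_mem hg (rt_pair_mem hB hpq hrs hσ hτ).1) (inv_mem hg)
  have hnc : ∀ k ∈ H, k * u * k⁻¹ ≠ x := by
    intro k hk he
    refine not_fused hB (mul_mem (inv_mem hk) hg) hpq hpr hps hqr hqs hrs hab hσ hτ ?_
    calc k⁻¹ * g * W * (k⁻¹ * g)⁻¹ = k⁻¹ * x * k := by rw [hx]; group
      _ = u := by rw [← he]; group
  have hPH : u * x ∈ H := mul_mem (flip_mem' hB a b) hxH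
  rcases Nat.even_or_odd' (orderOf (u * x)) with ⟨j, hj | hj⟩
  swap
  · exact absurd (conj_pow_of_odd hu2 hx2 (by rw [← hj, pow_orderOf_eq_one]))
      (hnc _ (pow_mem hPH j))
  have : Finite (orth Q) := finite_orth
  have hpos : 0 < orderOf (u * x) := orderOf_pos _
  set z := (u * x) ^ j with hz
  have hz2 : z * z = 1 := by rw [hz, ← pow_add, ← two_mul, ← hj, pow_orderOf_eq_one]
  have hz1 : z ≠ 1 := fun h0 => by
    have := orderOf_le_of_pow_eq_one (by omega : 0 < j) h0
    omega
  have hflip : ∀ k : ℕ, u * (u * x) ^ k = ((u * x) ^ k)⁻¹ * u := by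
    intro k
    have hs : SemiconjBy u (u * x) (u * x)⁻¹ := by
      show u * (u * x) = (u * x)⁻¹ * u
      rw [mul_inv_rev, inv_eq_of_mul_eq_one_right hx2, inv_eq_of_mul_eq_one_right hu2, mul_assoc x,
        hu2, mul_one, ← mul_assoc, hu2, one_mul]
    rw [← inv_pow]
    exact (hs.pow_right k).eq
  have hzi : z⁻¹ = z := inv_eq_of_mul_eq_one_right hz2
  have hzu : z * u = u * z := by rw [hz, hflip, ← hz, hzi]
  have hzP : Commute z (u * x) := (Commute.refl _).pow_left j
  have hzx : z * x = x * z := by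
    have hxe : x = u * (u * x) := by rw [← mul_assoc, hu2, one_mul]
    rw [hxe]
    exact (Commute.mul_right (show Commute z u from hzu) hzP)
  have hzH : z ∈ H := pow_mem hPH j
  refine ⟨z, hzH, mono_of_commute hB hzH hab hzu, hz2, hz1, ?_, hzu, hzx⟩
  by_contra hcon
  push Not at hcon
  have hzv : ∀ v : V, (z : V ≃ₗ[F] V) v = -v := fun v => by
    conv_lhs => rw [← h.expand v]
    conv_rhs => rw [← h.expand v]
    simp [hcon, Finset.sum_neg_distrib]
  obtain ⟨i, i', hii, hia, hib, -, hi'a, hi'b, -⟩ := exists_other_two a b a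
  obtain ⟨i'', i''', -, -, hi'', -⟩ := exists_other_two' a b i i' hab (Ne.symm hia) (Ne.symm hi'a)
    (Ne.symm hib) (Ne.symm hi'b) hii
  simp only [Finset.mem_insert, Finset.mem_singleton, not_or] at hi''
  obtain ⟨hua, hub, huo⟩ := flip_apply h hab
  have hS : ∀ l, l = i ∨ l = i' ∨ l = i'' → l ≠ a ∧ l ≠ b := by
    rintro l (rfl | rfl | rfl)
    exacts [⟨hia, hib⟩, ⟨hi'a, hi'b⟩, ⟨hi''.1, hi''.2.1⟩]
  rcases Nat.even_or_odd' j with ⟨i₀, hi₀ | hi₀⟩
  · set y := (u * x) ^ i₀ with hy
    have hyy : y * y = z := by rw [hy, ← pow_add, ← two_mul, ← hi₀]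
    have hyu : u * y = y⁻¹ * u := hflip i₀
    have hyinv : y⁻¹ = y * z := inv_eq_of_mul_eq_one_right (by rw [← mul_assoc, hyy, hz2])
    refine no_three h y (e a) (e b) hii (Ne.symm hi''.2.2.1) (Ne.symm hi''.2.2.2) fun l hl => ?_
    have h1 := congrArg (fun k : orth Q => (k : V ≃ₗ[F] V) (e l)) hyu
    simp only [orth_mul_apply, hyinv, huo l (hS l hl).1 (hS l hl).2, hzv, map_neg] at h1
    rw [show (u : V ≃ₗ[F] V) (e l) = e l from huo l (hS l hl).1 (hS l hl).2] at h1
    exact mem_of_pair_neg h h1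
  · have hcent : ∀ k : orth Q, Commute z k := fun k => H5.orth_ext fun v => by
      rw [orth_mul_apply, orth_mul_apply, hzv, hzv, map_neg]
    have hb2 : x * z * (x * z) = 1 := by
      rw [mul_assoc, ← mul_assoc z, hzx, mul_assoc x z z, hz2, mul_one, hx2]
    have hodd : (u * (x * z)) ^ (2 * i₀ + 1) = 1 := by
      rw [← mul_assoc, ((hcent (u * x)).symm).mul_pow, ← hi₀, ← hz, hi₀, pow_succ, pow_mul, sq, hz2,
        one_pow, one_mul, hz2]
    have hk := conj_pow_of_odd hu2 hb2 hodd
    set k₀ := (u * (x * z)) ^ i₀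
    have hxe : x = k₀ * (u * z) * k₀⁻¹ := by
      rw [← mul_assoc, mul_assoc (k₀ * u) z, (hcent k₀⁻¹).eq, ← mul_assoc, hk, mul_assoc, hz2,
        mul_one]
    refine no_three h k₀ ((g : V ≃ₗ[F] V) (rt e p q σ)) ((g : V ≃ₗ[F] V) (rt e r s τ))
      hii (Ne.symm hi''.2.2.1) (Ne.symm hi''.2.2.2) fun l hl => ?_
    have hxr : x = refl Q ((g : V ≃ₗ[F] V) (rt e p q σ)) * refl Q ((g : V ≃ₗ[F] V) (rt e r s τ)) := by
      rw [hx, hW, ← refl_conj, ← refl_conj]; group
    refine mem_of_pair_neg h ?_
    rw [← hxr, hxe, orth_mul_apply, orth_mul_apply, orth_mul_apply, orth_inv_apply_apply, hzv,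
      map_neg, huo l (hS l hl).1 (hS l hl).2, map_neg]

end Cfsg.Agent.H66.Frame6
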