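import Cfsg.Agent.H66.FourNormalizer

/-!
An absolutely irreducible group of type `4 ∘ 2^(1+2m)` in dimension four has order `2⁶`.
-/

set_option autoImplicit false

namespace Cfsg.Agent.H66.Frame6

open Matrix

variable {F : Type*} [Field F]

local notation "M4" => Matrix (Fin 4) (Fin 4) F
local notation "G4" => GL (Fin 4) F

theorem card_eq_sixty_four (h2 : (2 : F) ≠ 0) (h3 : (3 : F) ≠ 0) (R : Subgroup G4)
    (hRs : Cfsg.Geo.IsSymplecticTypeGroup 2 R)
    (hRi : Cfsg.Geo.ActsAbsolutelyIrreducibly (Cfsg.Geo.matrixSet R))
    (hRZ : Nat.card (Subgroup.center R) = 4) {m : ℕ} (hm : Nat.card R = 2 ^ (2 + 2 * m)) :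
    Nat.card R = 2 ^ 6 := by
  classical
  haveI : Finite R := Nat.finite_of_card_ne_zero (by rw [hm]; positivity)
  haveI := Fintype.ofFinite R
  have hsch : ∀ M : M4, (∀ g : R, M * ((g : G4) : M4) = ((g : G4) : M4) * M) → ∃ c : F, M = c • (1 : M4) :=
    fun M hM => hRi.2 M (by rintro _ ⟨g, hg, rfl⟩; exact hM ⟨g, hg⟩)
  have hscal : ∀ z ∈ Subgroup.center R, ∃ c : F, ((z : G4) : M4) = c • (1 : M4) := fun z hz =>
    hsch _ fun g => congrArg (fun u : R => ((u : G4) : M4)) (Subgroup.mem_center_iff.1 hz g).symm
  obtain ⟨w, hw⟩ := exists_prime_orderOf_dvd_card' (G := Subgroup.center R) 2 (by rw [hRZ]; norm_num)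
  have hw2 : (w : R) * w = 1 := by
    rw [← Subgroup.coe_mul, ← pow_two, ← hw, pow_orderOf_eq_one, Subgroup.coe_one]
  have hw1 : (w : R) ≠ 1 := fun e => by
    rw [(Subtype.ext e : w = 1), orderOf_one] at hw
    omega
  have hwm : (((w : R) : G4) : M4) = -1 := by
    obtain ⟨c, hc⟩ := hscal _ w.2
    have h := congrArg (fun u : R => ((u : G4) : M4)) hw2
    simp only [Subgroup.coe_mul, Units.val_mul, hc, smul_mul_smul, mul_one, Subgroup.coe_one, Units.val_one] at h
    have hcc : c * c = 1 := smul_left_injective F (one_ne_zero (α := M4))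
      (show (c * c) • (1 : M4) = (1 : F) • 1 by rw [one_smul]; exact h)
    rcases mul_self_eq_one_iff.1 hcc with e | e
    · exact absurd (Subtype.ext (Units.ext (by rw [hc, e, one_smul]; rfl))) hw1
    · rw [hc, e, neg_one_smul]
  have h4 : ∀ q : R, q ^ 4 = 1 := fun q => by
    have h := Monoid.pow_exponent_eq_one q
    rw [hRs.exponent_eq] at h
    exact h
  obtain ⟨hcomm, -, -⟩ := H58.symplectic_four_spec ⟨hRs.pGroup, hRs.cyclic_of_characteristic⟩ h4 w.2 hw2 hw1
  -- non-central members have trace zero
  have htr : ∀ g : R, g ∉ Subgroup.center R → ((g : G4) : M4).trace = 0 := by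
    intro g hg
    rw [Subgroup.mem_center_iff] at hg
    push Not at hg
    obtain ⟨h, hne⟩ := hg
    have e : h * g = w * (g * h) := by
      rw [← (hcomm h g).resolve_left fun e => hne (commutatorElement_eq_one_iff_mul_comm.1 e),
        commutatorElement_def]
      group
    have e' := congrArg (fun u : R => ((u : G4) : M4)) e
    simp only [Subgroup.coe_mul, Units.val_mul, hwm, neg_one_mul] at e'
    have h1 := Matrix.trace_units_conj (h : G4) ((g : G4) : M4)
    rw [e', neg_mul, mul_assoc, Units.mul_inv, mul_one, Matrix.trace_neg] at h1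
    have h5 : (2 : F) * ((g : G4) : M4).trace = 0 := by linear_combination -h1
    exact (mul_eq_zero.1 h5).resolve_left h2
  have h4F : (4 : F) ≠ 0 := by
    rw [show (4 : F) = 2 * 2 by norm_num]; exact mul_ne_zero h2 h2
  -- coset representatives are linearly independent
  have hQ : Nat.card (R ⧸ Subgroup.center R) ≤ 16 := by
    haveI := Fintype.ofFinite (R ⧸ Subgroup.center R)
    have hli : LinearIndependent F fun q : R ⧸ Subgroup.center R => ((q.out : G4) : M4) := by
      rw [Fintype.linearIndependent_iff]
      intro c hc q₀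
      have h := congrArg (fun A : M4 => (((q₀.out⁻¹ : R) : G4) * A : M4).trace) hc
      simp only [Finset.mul_sum, mul_smul_comm, Matrix.trace_sum, Matrix.trace_smul, mul_zero, Matrix.trace_zero,
        smul_eq_mul, ← Units.val_mul, ← Subgroup.coe_mul] at h
      rw [Finset.sum_eq_single q₀ (fun q _ hq => ?_) (fun h => absurd (Finset.mem_univ _) h),
        inv_mul_cancel, Subgroup.coe_one, Units.val_one, Matrix.trace_one, Fintype.card_fin] at h
      · exact (mul_eq_zero.1 h).resolve_right (by exact_mod_cast h4F)
      · rw [htr _ fun hmem => hq ?_, mul_zero]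
        have := QuotientGroup.eq.2 hmem
        rw [QuotientGroup.out_eq', QuotientGroup.out_eq'] at this
        exact this.symm
    have := hli.fintype_card_le_finrank
    rwa [Module.finrank_matrix, Module.finrank_self, Fintype.card_fin, ← Nat.card_eq_fintype_card] at this
  have hidx := (Subgroup.center R).card_mul_index
  rw [hRZ, hm, Subgroup.index_eq_card] at hidx
  have hm2 : m ≤ 2 := by
    by_contra hgt
    have : 2 ^ (2 + 2 * 3) ≤ 2 ^ (2 + 2 * m) := Nat.pow_le_pow_right (by norm_num) (by omega)
    omega
  interval_cases m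
  · -- all members scalar
    exfalso
    have htop : Subgroup.center R = ⊤ := Subgroup.eq_top_of_card_eq _ (by rw [hRZ, hm]; norm_num)
    obtain ⟨c, hc⟩ := hsch (Matrix.single 0 1 1) fun g => by
      obtain ⟨d, hd⟩ := hscal g (by rw [htop]; exact Subgroup.mem_top g)
      rw [hd, mul_smul_comm, smul_mul_assoc, mul_one, one_mul]
    have := congrFun (congrFun hc 0) 1
    simp at this
  · -- the character norm
    exfalso
    set f : R → F := fun g => ((g : G4) : M4).trace * (((g⁻¹ : R) : G4) : M4).trace with hf
    have hsum : ∑ g, f g = 16 := by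
      have key : ∀ j k : Fin 4, ∑ g : R, ((g : G4) : M4) j j * (((g⁻¹ : R) : G4) : M4) k k =
          if j = k then 4 else 0 := by
        intro j k
        set S : M4 := ∑ g : R, ((g : G4) : M4) * Matrix.single j k 1 * (((g⁻¹ : R) : G4) : M4) with hS
        obtain ⟨c, hc⟩ := hsch S fun h => by
          rw [hS, Finset.sum_mul, Finset.mul_sum,
            ← Equiv.sum_comp (Equiv.mulLeft h)
              (fun g : R => ((g : G4) : M4) * Matrix.single j k 1 * (((g⁻¹ : R) : G4) : M4) * ((h : G4) : M4))]
          refine Finset.sum_congr rfl fun g _ => ?_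
          simp [mul_assoc]
        have ht : S.trace = 16 * (Matrix.single j k (1 : F)).trace := by
          rw [hS, Matrix.trace_sum]
          simp only [Matrix.trace_mul_cycle, ← Units.val_mul, ← Subgroup.coe_mul, inv_mul_cancel, Subgroup.coe_one,
            Units.val_one, one_mul]
          rw [Finset.sum_const, Finset.card_univ, nsmul_eq_mul, ← Nat.card_eq_fintype_card, hm]
          norm_num
        have hc' : c = 4 * (Matrix.single j k (1 : F)).trace := by
          rw [hc, Matrix.trace_smul, Matrix.trace_one, Fintype.card_fin, smul_eq_mul] at ht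
          exact mul_left_cancel₀ h4F (by push_cast at ht ⊢; linear_combination ht)
        have he := congrFun (congrFun hc j) k
        rw [hS, Matrix.sum_apply] at he
        simp only [Matrix.mul_apply, Matrix.single_apply, Matrix.smul_apply, smul_eq_mul] at he
        simp [Matrix.one_apply, Finset.sum_ite_eq, ite_and, hc'] at he
        simp only [Subgroup.coe_inv, Matrix.coe_units_inv]
        rw [he]
        split_ifs with hjk
        · subst hjk; simp
        · rfl
      simp only [hf, Matrix.trace, Matrix.diag, Finset.sum_mul, Finset.mul_sum]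
      rw [Finset.sum_comm]
      simp_rw [Finset.sum_comm (s := (Finset.univ : Finset R)), key]
      simp
      norm_num
    have hval : ∀ g, f g = if g ∈ Subgroup.center R then 16 else 0 := by
      intro g
      split_ifs with hg
      · obtain ⟨c, hc⟩ := hscal g hg
        obtain ⟨d, hd⟩ := hscal g⁻¹ (inv_mem hg)
        have hcd := congrArg (fun u : R => ((u : G4) : M4)) (mul_inv_cancel g)
        simp only [Subgroup.coe_mul, Units.val_mul, hc, hd, smul_mul_smul, mul_one, Subgroup.coe_one,
          Units.val_one] at hcd
        have hcd' : c * d = 1 := smul_left_injective F (one_ne_zero (α := M4))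
          (show (c * d) • (1 : M4) = (1 : F) • 1 by rw [one_smul]; exact hcd)
        simp only [hf, hc, hd, Matrix.trace_smul, Matrix.trace_one, Fintype.card_fin, smul_eq_mul]
        push_cast
        linear_combination 16 * hcd'
      · simp only [hf, htr g hg, zero_mul]
    simp only [hval, ← Finset.sum_filter, Finset.sum_const, nsmul_eq_mul] at hsum
    have hc4 : (Finset.univ.filter fun g : R => g ∈ Subgroup.center R).card = 4 := by
      exact (Fintype.card_subtype _).symm.trans (Nat.card_eq_fintype_card.symm.trans hRZ)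
    rw [hc4] at hsum
    have h48 : (2 : F) * 2 * 2 * 2 * 3 = 0 := by push_cast at hsum; linear_combination hsum
    exact mul_ne_zero (mul_ne_zero (mul_ne_zero (mul_ne_zero h2 h2) h2) h2) h3 h48
  · exact hm

end Cfsg.Agent.H66.Frame6
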