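import Cfsg.Agent.H66.Frame6.Transfer
import Cfsg.Agent.H66.Frame6.Sixty
import Cfsg.Agent.H66.FourNormalizer
import Cfsg.Agent.S0302

/-!
Normalisers of `4 ∘ 2^(1+4)` in `SL₄(p)`, `p ≡ 1 (mod 4)`: maximal, through the exterior square.
-/

set_option autoImplicit false

namespace Cfsg.Agent.H66.Frame6

open QuadraticMap hiding sq
open Cfsg.Agent.H5
open Cfsg.Agent.H66.Minus (IsFrame)
open scoped Matrix

section general

variable {F V : Type*} [Field F] [Finite F] [AddCommGroup V] [Module F V] [FiniteDimensional F V]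
  [Finite V] {Q : QuadraticForm F V}

theorem range_eq_commutator {G : Type*} [Group G] (hQ : (polarBilin Q).Nondegenerate)
    (hn : Module.finrank F V = 6) (hperf : commutator G = ⊤) (φ : G →* orth Q) {e f : V}
    (h : HypPair Q e f) (hroot : ∀ a ∈ pperp Q e f, ∃ g, φ g = eich Q e a)
    (hswap : ∃ w, ∃ t : F, t ≠ 0 ∧ (φ w : V ≃ₗ[F] V) e = t • f) :
    φ.range = commutator (orth Q) := by
  refine le_antisymm (range_le_commutator_of_perfect hperf φ) ?_
  obtain ⟨w, t, ht, hw⟩ := hswap
  exact (commutator_eq_eichGroup hQ (by omega) (Or.inr (by omega))).le.trans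
    (eichGroup_le_of_swap hQ (by omega) h (fun a ha => MonoidHom.mem_range.2 (hroot a ha))
      ⟨φ w, ⟨w, rfl⟩, t, ht, hw⟩)

end general

variable {F : Type*} [Field F]

local notation "M4" => Matrix (Fin 4) (Fin 4) F
local notation "G4" => GL (Fin 4) F

/-- Frame members and the scalars of the group have determinant one. -/
theorem le_specialLinear (h2 : (2 : F) ≠ 0) {i : F} {R : Subgroup G4} (D : Four.Data i R) :
    R ≤ Cfsg.Geo.specialLinear (Fin 4) F := by
  classical
  obtain ⟨t, htR, ht, hgen⟩ := D.exists_frame h2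
  set T : Fin 5 → M4 := fun j => (t j : M4) with hT
  have hdet : ∀ a b : Fin 5, (T a).det = (T b).det := by
    intro a b
    rcases eq_or_ne a b with rfl | hab
    · rfl
    have hs : (T a - T b) * T a = -T b * (T a - T b) := ht.semiconj_left hab
    have hu : (T a - T b) * (T a - T b) = (2 : F) • (1 : M4) := by
      rw [sub_mul, mul_sub, mul_sub, ht.sq, ht.sq, ht.anti a b hab, two_smul]; abel
    have hne : (T a - T b).det ≠ 0 := by
      intro h0
      have h1 := congrArg Matrix.det hu
      rw [Matrix.det_mul, h0, zero_mul, Matrix.det_smul, Matrix.det_one, mul_one] at h1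
      exact pow_ne_zero _ h2 h1.symm
    have h1 := congrArg Matrix.det hs
    rw [Matrix.det_mul, Matrix.det_mul, Matrix.det_neg] at h1
    simp only [Fintype.card_fin, Even.neg_pow (by decide : Even 4), one_pow, one_mul] at h1
    exact mul_left_cancel₀ hne (by rw [h1]; ring)
  set M : M4 := Four.mono T (fun _ => 1) with hM
  have hMexp : M = T 0 * T 1 * T 2 * T 3 := by simp [hM, Four.mono]
  have hanti : ∀ j, T j * M = (-1 : F) ^ Four.flips j (fun _ => (1 : Fin 2)) • (M * T j) := fun j =>
    Four.mul_mono ht j _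
  have hfl : ∀ j : Fin 5, j ≠ 4 → Four.flips j (fun _ => (1 : Fin 2)) = 3 := by decide
  have hf4 : Four.flips (4 : Fin 5) (fun _ => (1 : Fin 2)) = 4 := by decide
  have hcomm : ∀ j, (T 4 * M) * T j = T j * (T 4 * M) := by
    intro j
    rcases eq_or_ne j 4 with rfl | hj
    · have h1 := hanti 4
      rw [hf4, Even.neg_pow (by decide : Even 4), one_pow, one_smul] at h1
      rw [mul_assoc, ← h1]
    · have h1 := hanti j
      rw [hfl j hj, Odd.neg_pow (by decide : Odd 3), one_pow, neg_one_smul] at h1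
      calc T 4 * M * T j = T 4 * (M * T j) := mul_assoc _ _ _
        _ = -(T 4 * T j * M) := by rw [mul_assoc, h1, mul_neg, neg_neg]
        _ = _ := by rw [ht.anti 4 j (Ne.symm hj), neg_mul, neg_neg, mul_assoc]
  obtain ⟨l, hl⟩ := Four.scalar_of_commute h2 ht hcomm
  have key : ∀ (a b : Fin 5), a ≠ b → ∀ Z : M4, T a * (T b * Z) = -(T b * (T a * Z)) := fun a b hab Z => by
    rw [← mul_assoc, ht.anti a b hab, neg_mul, mul_assoc]
  have hsq' : ∀ (a : Fin 5) (Z : M4), T a * (T a * Z) = Z := fun a Z => by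
    rw [← mul_assoc, ht.sq, one_mul]
  have hMM : M * M = 1 := by
    rw [hMexp]
    simp only [mul_assoc]
    rw [key 3 0 (by decide), mul_neg, mul_neg, mul_neg, key 2 0 (by decide), mul_neg, mul_neg, neg_neg,
      key 1 0 (by decide), mul_neg, hsq', key 3 1 (by decide), mul_neg, mul_neg,
      key 2 1 (by decide), mul_neg, neg_neg, hsq',
      key 3 2 (by decide), mul_neg, hsq', neg_neg, ht.sq]
  have hll : l * l = 1 := by
    have h1 := congrArg (fun X : M4 => X * X) hl
    have h4 : T 4 * M = M * T 4 := by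
      have h1 := hanti 4
      rwa [hf4, Even.neg_pow (by decide : Even 4), one_pow, one_smul] at h1
    simp only [smul_mul_smul, mul_one] at h1
    rw [mul_assoc, ← mul_assoc M, ← h4, mul_assoc (T 4) M M, hMM, mul_one, ht.sq] at h1
    exact smul_left_injective F (one_ne_zero (α := M4)) (show (l * l) • (1 : M4) = (1 : F) • 1 by
      rw [one_smul]; exact h1.symm)
  have hd2 : (T 0).det * (T 0).det = 1 := by rw [← Matrix.det_mul, ht.sq, Matrix.det_one]
  have hd : ∀ j, (T j).det = 1 := by
    intro j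
    have h1 := congrArg Matrix.det hl
    rw [hMexp, Matrix.det_mul, Matrix.det_mul, Matrix.det_mul, Matrix.det_mul, hdet 4 0, hdet 1 0,
      hdet 2 0, hdet 3 0, Matrix.det_smul, Matrix.det_one, Fintype.card_fin, mul_one] at h1
    rw [hdet j 0]
    linear_combination h1 + (l * l + 1) * hll -
      ((T 0).det * (T 0).det * (T 0).det + (T 0).det) * hd2
  intro g hg
  have hle : Subgroup.closure (Set.range t ∪ {g | g ∈ R ∧ ∃ c : F, (g : M4) = c • (1 : M4)}) ≤
      Cfsg.Geo.specialLinear (Fin 4) F := by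
    rw [Subgroup.closure_le]
    rintro _ (⟨j, rfl⟩ | ⟨hxR, c, hc⟩)
    · exact MonoidHom.mem_ker.2 (Units.ext (hd j))
    · rename_i x
      refine MonoidHom.mem_ker.2 (Units.ext ?_)
      have h4 := congrArg (fun u : G4 => (u : M4)) (D.pow_four x hxR)
      simp only [Units.val_pow_eq_pow_val, hc, smul_pow, one_pow, Units.val_one] at h4
      have hc4 : c ^ 4 = 1 := smul_left_injective F (one_ne_zero (α := M4))
        (show c ^ 4 • (1 : M4) = (1 : F) • 1 by rw [one_smul]; exact h4)
      change (x : M4).det = 1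
      rw [hc, Matrix.det_smul, Matrix.det_one, Fintype.card_fin, mul_one, hc4]
  exact hle (hgen hg)

/-- A map onto `Ω` with kernel `±1` makes the normaliser maximal. -/
theorem normalizer_maximal_of_data {K V G : Type*} [Group G] [Field K] [Fintype K] [AddCommGroup V]
    [Module K V] [FiniteDimensional K V] [Finite V] {Q : QuadraticForm K V}
    (hQ : (polarBilin Q).Nondegenerate) (hK2 : (2 : K) ≠ 0) (hn : Module.finrank K V = 6)
    (hp : (Fintype.card K).Prime) (h2 : (2 : F) ≠ 0) (ι : G →* G4) (hι : Function.Injective ι)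
    {S : Subgroup G4} (hS : ι.range = S) (φ : G →* orth Q) (hrange : φ.range = commutator (orth Q))
    (hker : ∀ g, φ g = 1 ↔ ((ι g : M4) = 1 ∨ (ι g : M4) = -1))
    {i : F} {R : Subgroup G4} (D : Four.Data i R) (hR : R ≤ S) :
    Cfsg.Geo.IsMaximalIn S (Cfsg.Geo.subgroupNormalizer R ⊓ S) := by
  classical
  obtain ⟨u, hu, hu'⟩ := D.imem
  have huu : ((u * u : G4) : M4) = -1 := by
    rw [Units.val_mul, hu', smul_mul_smul, mul_one, D.sqi, neg_one_smul]
  refine isMaximalIn_normalizer hQ hK2 hn hp ι hι hS φ hrange R hR (fun g hg => ?_) ?_ ?_ ?_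
  · rcases (hker g).1 hg with h' | h'
    · rw [Subgroup.mem_comap, show ι g = 1 from Units.ext h']; exact one_mem R
    · rw [Subgroup.mem_comap, show ι g = u * u from Units.ext (h'.trans huu.symm)]; exact mul_mem hu hu
  · intro a b ha hb
    have h1 : φ ((a * b) * (b * a)⁻¹) = 1 := by
      refine (hker _).2 ?_
      rcases D.sign _ ha _ hb with h' | h'
      · left; simp only [map_mul, map_inv]; rw [h', mul_inv_cancel, Units.val_one]
      · right
        have hneg : (((ι a * ι b : G4)) : M4) = -((ι b * ι a : G4) : M4) := by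
          simpa [Units.val_mul] using h'
        simp only [map_mul, map_inv]
        rw [Units.val_mul, hneg, neg_mul, ← Units.val_mul, mul_inv_cancel, Units.val_one]
    rw [map_mul, map_inv, map_mul, map_mul] at h1
    exact mul_inv_eq_one.1 h1
  · intro a ha
    rw [← map_mul]
    refine (hker _).2 ?_
    simp only [map_mul, Units.val_mul]
    exact D.sq _ ha
  · have hcomap : Nat.card (R.comap ι) = 64 := by
      rw [Nat.card_congr (Subgroup.equivMapOfInjective _ ι hι).toEquiv,
        Subgroup.map_comap_eq, hS, inf_eq_right.2 hR, D.card]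
    set f := φ.comp (R.comap ι).subtype
    have hrg : f.range = (R.comap ι).map φ := by
      rw [MonoidHom.range_comp, Subgroup.range_subtype]
    have hk : Nat.card f.ker = 2 := by
      obtain ⟨w, hw⟩ : ∃ w : G, ι w = u * u := by
        rw [← MonoidHom.mem_range, hS]; exact hR (mul_mem hu hu)
      have hwR : w ∈ R.comap ι := by rw [Subgroup.mem_comap, hw]; exact mul_mem hu hu
      rw [Nat.card_eq_two_iff]
      refine ⟨⟨1, one_mem _⟩, ⟨⟨w, hwR⟩, (hker w).2 (Or.inr (by rw [hw, huu]))⟩, fun he => ?_,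
        Set.eq_univ_of_forall fun x => ?_⟩
      · have h1 : (1 : G) = w := congrArg (fun z : f.ker => ((z : R.comap ι) : G)) he
        have h3 : (1 : M4) = -1 := by rw [← huu, ← hw, ← h1, map_one, Units.val_one]
        have h4 := congrFun (congrFun h3 0) 0
        simp at h4
        exact h2 (by linear_combination h4)
      · rcases (hker _).1 (MonoidHom.mem_ker.1 x.2) with h' | h'
        · left
          exact Subtype.ext (Subtype.ext (hι (by
            change ι _ = ι 1
            rw [map_one]; exact Units.ext h')))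
        · right
          exact Subtype.ext (Subtype.ext (hι (Units.ext (h'.trans (by rw [hw, huu])))))
    have h1 := f.ker.card_mul_index
    rw [Subgroup.index_ker, hrg, hk, hcomap] at h1
    omega

theorem minorMat_scalar (z : F) : H63.minorMat (z • (1 : M4)) = (z * z) • 1 := by
  ext a b
  rcases a with a | a <;> fin_cases a <;> rcases b with b | b <;> fin_cases b <;>
    simp [H63.minorMat, H63.pairIdx, Matrix.one_apply, Matrix.smul_apply]

/-- Conjunct: normalisers of symplectic-type groups in `SL₄(p)`. -/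
theorem sl_four_symplecticType_maximal [Fintype F] (p : ℕ) (R : Subgroup G4) (hp : p.Prime)
    (hF : Fintype.card F = p) (hp4 : p % 4 = 1) (hR : Cfsg.Geo.IsLinearSymplecticTypeData 2 R) :
    Cfsg.Geo.IsMaximalIn (Cfsg.Geo.specialLinear (Fin 4) F)
      (Cfsg.Geo.subgroupNormalizer R ⊓ Cfsg.Geo.specialLinear (Fin 4) F) := by
  classical
  have h2 : (2 : F) ≠ 0 := Ring.two_ne_zero fun hchar => by
    have := FiniteField.even_card_of_char_two hchar
    omega
  obtain ⟨q, k, -, -, hcases⟩ := hR.field
  obtain ⟨hZ, m, hm⟩ : Nat.card (Subgroup.center R) = 4 ∧ ∃ m : ℕ, Nat.card R = 2 ^ (2 + 2 * m) := by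
    rcases hcases with ⟨h', -⟩ | ⟨-, -, hZ, -, hm⟩ | ⟨-, -, h', -⟩
    · exact absurd h' (by decide)
    · exact ⟨hZ, hm⟩
    · simp at h'
  have h3 : (3 : F) ≠ 0 := by
    intro h
    haveI : CharP F p := by
      haveI := Fact.mk hp
      exact charP_of_card_eq_prime hF
    have := (CharP.cast_eq_zero_iff F p 3).1 (by simpa using h)
    rw [Nat.prime_dvd_prime_iff_eq hp Nat.prime_three] at this
    omega
  have hR6 : Nat.card R = 2 ^ 6 := card_eq_sixty_four h2 h3 R hR.symplecticType hR.absIrred hZ hm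
  obtain ⟨i, D⟩ := Four.exists_data h2 R hR.symplecticType hR.absIrred hR6 hZ
  have hperf := H1.commutator_SL_eq_top (ι := Fin 4) (F := F) (Or.inl (by simp))
  have hroot : ∀ v ∈ pperp (pfQ F) (Pi.single (.inl 0) 1) (Pi.single (.inr 0) 1),
      ∃ g, wedgeHom F g = eich (pfQ F) (Pi.single (.inl 0) 1) v := fun v hv => ⟨_, wedgeHom_rootSL hv⟩
  have hswap : ∃ w, ∃ t : F, t ≠ 0 ∧ (wedgeHom F w : (Fin 3 ⊕ Fin 3 → F) ≃ₗ[F] _) (Pi.single (.inl 0) 1) =
      t • (Pi.single (Sum.inr 0) 1 : Fin 3 ⊕ Fin 3 → F) := ⟨swapSL F, 1, one_ne_zero, by rw [wedgeHom_swapSL, one_smul]⟩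
  have hn : Module.finrank F (Fin 3 ⊕ Fin 3 → F) = 6 := by simp
  haveI : Finite (Fin 3 ⊕ Fin 3 → F) := Pi.finite
  refine normalizer_maximal_of_data pfQ_nondegenerate h2 hn (hF ▸ hp) h2
    Matrix.SpecialLinearGroup.toGL Matrix.SpecialLinearGroup.toGL_injective ?_ (wedgeHom F)
    (range_eq_commutator pfQ_nondegenerate hn hperf _ hypPair_pfQ hroot hswap) (fun g => ?_) D
    (le_specialLinear h2 D)
  · ext g
    rw [Cfsg.Geo.specialLinear, MonoidHom.mem_ker, MonoidHom.mem_range]
    constructor
    · rintro ⟨s, rfl⟩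
      exact Units.ext s.det_coe
    · intro hg
      exact ⟨⟨(g : M4), congrArg Units.val hg⟩, Units.ext rfl⟩
  · constructor
    · intro hg
      have hc : g ∈ Subgroup.center (Matrix.SpecialLinearGroup (Fin 4) F) :=
        ker_le_center_of_simple hperf (H1.isSimpleGroup_PSL_of_three_le 4 (by norm_num)) _
          ⟨swapSL F, fun h1 => by
            have h3 := wedgeHom_swapSL (F := F)
            rw [h1] at h3
            have := congrFun h3 (.inl 0)
            simp at this⟩ (MonoidHom.mem_ker.2 hg)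
      obtain ⟨z, -, hz⟩ := Matrix.SpecialLinearGroup.mem_center_iff.1 hc
      have hz' : (g : M4) = z • (1 : M4) := by
        rw [← hz, Matrix.scalar_apply, Matrix.smul_one_eq_diagonal]
      have h1 := congrArg (fun y : orth (pfQ F) =>
        (y : (Fin 3 ⊕ Fin 3 → F) ≃ₗ[F] (Fin 3 ⊕ Fin 3 → F)) (Pi.single (.inl 0) 1) (.inl 0)) hg
      simp only [wedgeHom_apply, hz', minorMat_scalar, Matrix.smul_mulVec, Matrix.one_mulVec] at h1
      have hzz : z * z = 1 := by simpa using h1
      change (g : M4) = 1 ∨ (g : M4) = -1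
      rcases mul_self_eq_one_iff.1 hzz with rfl | rfl
      · left; rw [hz', one_smul]
      · right; rw [hz', neg_one_smul]
    · intro hg
      obtain ⟨z, hzz, hz'⟩ : ∃ z : F, z * z = 1 ∧ (g : M4) = z • (1 : M4) := by
        rcases hg with h' | h'
        · exact ⟨1, one_mul 1, by rw [one_smul]; exact h'⟩
        · exact ⟨-1, by ring, by rw [neg_one_smul]; exact h'⟩
      refine H5.orth_ext fun x => ?_
      rw [wedgeHom_apply, hz', minorMat_scalar, hzz, one_smul, Matrix.one_mulVec]
      rfl

end Cfsg.Agent.H66.Frame6
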