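import Cfsg.Agent.H66.Frame6.Klein
import Cfsg.Agent.H5.UnitaryMinus
import Cfsg.Agent.H3.Simple

/-!
Normalisers of `4 ∘ 2^(1+4)` in `SU₄(p)`, `p ≡ 3 (mod 4)`: maximal, through the minus-type six-space.
-/

set_option autoImplicit false

namespace Cfsg.Agent.H66.Frame6

open QuadraticMap hiding sq
open Cfsg.Agent.H5
open scoped Matrix

variable {F : Type*} [Field F]

local notation "M4" => Matrix (Fin 4) (Fin 4) F
local notation "G4" => GL (Fin 4) F

/-- `SU₄` inside `GL₄`. -/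
def suToGL (F : Type*) [Field F] (q : ℕ) : Cfsg.SU 4 F q →* GL (Fin 4) F :=
  Matrix.SpecialLinearGroup.toGL.comp (Cfsg.SU 4 F q).subtype

theorem suToGL_injective (q : ℕ) : Function.Injective (suToGL F q) :=
  Matrix.SpecialLinearGroup.toGL_injective.comp Subtype.val_injective

theorem range_suToGL (q : ℕ) :
    (suToGL F q).range = Cfsg.GU 4 F q ⊓ Cfsg.Geo.specialLinear (Fin 4) F := by
  ext g
  rw [Subgroup.mem_inf, MonoidHom.mem_range, Cfsg.Geo.specialLinear, MonoidHom.mem_ker, H3.mem_GU_iff]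
  constructor
  · rintro ⟨s, rfl⟩
    exact ⟨H3.mem_SU_iff.1 s.2, Units.ext (s : Matrix.SpecialLinearGroup (Fin 4) F).det_coe⟩
  · rintro ⟨hu, hd⟩
    exact ⟨⟨⟨(g : M4), congrArg Units.val hd⟩, H3.mem_SU_iff.2 hu⟩, Units.ext rfl⟩

/-- Conjunct: normalisers of symplectic-type groups in `SU₄(p)`. -/
theorem su_four_symplecticType_maximal [Fintype F] (q : ℕ) (hF : Fintype.card F = q ^ 2) (p : ℕ)
    (R : Subgroup G4) (hp : p.Prime) (hq : q = p) (hp4 : p % 4 = 3)
    (hRs : Cfsg.Geo.IsSymplecticTypeGroup 2 R)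
    (hRi : Cfsg.Geo.ActsAbsolutelyIrreducibly (Cfsg.Geo.matrixSet R))
    (hRU : R ≤ Cfsg.GU 4 F q) (hR6 : Nat.card R = 64) (hRZ : Nat.card (Subgroup.center R) = 4) :
    Cfsg.Geo.IsMaximalIn (Cfsg.GU 4 F q ⊓ Cfsg.Geo.specialLinear (Fin 4) F)
      (Cfsg.Geo.subgroupNormalizer R ⊓ (Cfsg.GU 4 F q ⊓ Cfsg.Geo.specialLinear (Fin 4) F)) := by
  classical
  subst q
  haveI : Fact p.Prime := ⟨hp⟩
  have h2 : (2 : F) ≠ 0 := Ring.two_ne_zero fun hchar => by
    have h := FiniteField.even_card_of_char_two hchar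
    rw [hF, pow_two, Nat.mul_mod] at h
    rcases Nat.mod_two_eq_zero_or_one p with e | e
    · omega
    · simp [e] at h
  have h2' : (2 : ZMod p) ≠ 0 := Ring.two_ne_zero (by rw [ZMod.ringChar_zmod_n]; omega)
  obtain ⟨i, D⟩ := Four.exists_data h2 R hRs hRi (hR6.trans (by norm_num)) hRZ
  have hab : ∀ z₁ z₂ : ZMod p, z₁ ^ 2 + 0 * z₁ * z₂ + 1 * z₂ ^ 2 = 0 → z₁ = 0 ∧ z₂ = 0 := by
    intro z₁ z₂ h
    have h' : z₁ ^ 2 + z₂ ^ 2 = 0 := by linear_combination h
    rcases eq_or_ne z₂ 0 with hz | hz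
    · exact ⟨by simpa [hz] using h', hz⟩
    · exfalso
      refine (ZMod.exists_sq_eq_neg_one_iff.1 (⟨z₁ / z₂, ?_⟩ : IsSquare (-1 : ZMod p))) hp4
      field_simp
      linear_combination -h'
  have hcard : Fintype.card (ZMod p) = p := ZMod.card p
  obtain ⟨E⟩ := nonempty_quadExt hcard hF 0 1 hab
  obtain ⟨δ, hδ, hδ'⟩ := H3.exists_trace_zero_ne_zero hF
  obtain ⟨P, hP⟩ := exists_basis_change hF
  set φ := suMinusHom E hF hδ hδ' P hP hcard with hφ
  haveI : Finite ((Fin 2 ⊕ Fin 2) ⊕ Fin 2 → ZMod p) := Pi.finite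
  have hn : Module.finrank (ZMod p) ((Fin 2 ⊕ Fin 2) ⊕ Fin 2 → ZMod p) = 6 := by simp
  have hperf := H3.commutator_SU_eq_top hF (n := 4) (by norm_num) (by omega)
  have hsimple := H3.isSimpleGroup_PSU hF (n := 4) (by norm_num) (by omega)
  obtain ⟨w, hw⟩ := exists_suMinusHom_swap E hF hδ hδ' P hP hcard
  have hrange : φ.range = commutator (orth (qMinus 2 (ZMod p) 0 1)) :=
    range_eq_commutator (qMinus_nondegenerate 2 hab) hn hperf φ hypPair_qMinus
      (fun v hv => exists_suMinusHom_eq_eich E hF hδ hδ' P hP hcard hv)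
      ⟨w, -1, neg_ne_zero.2 one_ne_zero, hw⟩
  -- scalars act through their squares
  have hscal : ∀ (g : Cfsg.SU 4 F p) (z : F), ((suToGL F p g : G4) : M4) = z • (1 : M4) →
      ∀ v, (minusEmb E hδ).emb ((φ g : ((Fin 2 ⊕ Fin 2) ⊕ Fin 2 → ZMod p) ≃ₗ[ZMod p] _) v) =
        (z * z) • (minusEmb E hδ).emb v := by
    intro g z hz v
    rw [hφ, suMinusHom, FormEmb.emb_restrictHom]
    change (wedgeHom F (suConj P g) : (Fin 3 ⊕ Fin 3 → F) ≃ₗ[F] (Fin 3 ⊕ Fin 3 → F)) _ = _
    have hz' : ((suConj P g : Matrix.SpecialLinearGroup (Fin 4) F) : M4) = z • (1 : M4) := by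
      change (P : M4) * ((g : Matrix.SpecialLinearGroup (Fin 4) F) : M4) * ((P⁻¹ : G4) : M4) = _
      rw [show ((g : Matrix.SpecialLinearGroup (Fin 4) F) : M4) = z • 1 from hz, Matrix.mul_smul, Matrix.mul_one,
        Matrix.smul_mul, Units.mul_inv]
    rw [wedgeHom_apply, hz', minorMat_scalar, Matrix.smul_mulVec, Matrix.one_mulVec]
  have hker : ∀ g, φ g = 1 ↔ (((suToGL F p g : G4) : M4) = 1 ∨ ((suToGL F p g : G4) : M4) = -1) := by
    intro g
    constructor
    · intro hg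
      have hne : ∃ g, φ g ≠ 1 := ⟨w, fun h1 => by
        have h3 := hw
        rw [← hφ, h1] at h3
        have := congrFun h3 (.inl (.inl 0))
        simp at this⟩
      obtain ⟨z, hz⟩ := (H3.mem_center_SU_iff hF (by norm_num) g).1
        (ker_le_center_of_simple hperf hsimple φ hne (MonoidHom.mem_ker.2 hg))
      have hz' : ((suToGL F p g : G4) : M4) = z • (1 : M4) :=
        Matrix.ext_of_mulVec_single fun j => by
          rw [Matrix.smul_mulVec, Matrix.one_mulVec]; exact hz _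
      have h1 := hscal g z hz' (Pi.single (.inl (.inl 0)) 1)
      rw [hg] at h1
      have h3 := congrFun h1 (.inl 0)
      have hzz : z * z = 1 := by
        simp [minusEmb, minusLin] at h3
        exact h3.symm
      rcases mul_self_eq_one_iff.1 hzz with rfl | rfl
      · left; rw [hz', one_smul]
      · right; rw [hz', neg_one_smul]
    · intro hg
      obtain ⟨z, hzz, hz'⟩ : ∃ z : F, z * z = 1 ∧ ((suToGL F p g : G4) : M4) = z • (1 : M4) := by
        rcases hg with h' | h'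
        · exact ⟨1, one_mul 1, by rw [one_smul]; exact h'⟩
        · exact ⟨-1, by ring, by rw [neg_one_smul]; exact h'⟩
      refine orth_ext fun v => (minusEmb E hδ).injective ?_
      rw [hscal g z hz' v, hzz, one_smul]
      rfl
  exact normalizer_maximal_of_data (qMinus_nondegenerate 2 hab) h2' hn (by rwa [hcard]) h2 (suToGL F p)
    (suToGL_injective p) (range_suToGL p) φ hrange hker D (le_inf hRU (le_specialLinear h2 D))

end Cfsg.Agent.H66.Frame6
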