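import Cfsg.Agent.H66.Frame6.Root

/-!
Overgroups of a frame stabiliser in which frame vectors have monomial stabilisers are monomial.
-/

set_option autoImplicit false

namespace Cfsg.Agent.H66.Frame6

open QuadraticMap hiding sq
open Cfsg.Agent.H5

variable {F V : Type*} [Field F] [AddCommGroup V] [Module F V] {Q : QuadraticForm F V}
  {e : Fin 6 → V} {c : F} {H : Subgroup (orth Q)} [FiniteDimensional F V] [Finite F] [Finite V]

theorem invol_perm (h : OrthFrame Q e c) {z : orth Q} {π : Equiv.Perm (Fin 6)} {s : Fin 6 → F}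
    (hs : ∀ i, s i = 1 ∨ s i = -1) (hπ : ∀ i, (z : V ≃ₗ[F] V) (e i) = s i • e (π i)) (hz2 : z * z = 1)
    (l : Fin 6) : π (π l) = l ∧ s (π l) = s l := by
  have h1 : (z : V ≃ₗ[F] V) ((z : V ≃ₗ[F] V) (e l)) = e l := by rw [← orth_mul_apply, hz2]; rfl
  rw [hπ, map_smul, hπ, smul_smul] at h1
  have h2 := congrArg (coordAt Q e c l) h1
  rw [map_smul, h.coord_self, h.coord_vec, smul_eq_mul] at h2
  have hlm : l = π (π l) := by
    by_contra hne
    rw [if_neg hne, mul_zero] at h2
    exact zero_ne_one h2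
  rw [if_pos hlm, mul_one] at h2
  have hl := sq_one (hs l)
  exact ⟨hlm.symm, mul_left_cancel₀ (left_ne_zero_of_mul_eq_one hl) (h2.trans hl.symm)⟩

/-- A monomial involution other than `±1` fixes two frame vectors with one sign and has a root
vector of the opposite sign. -/
theorem exists_sides (hB : Base Q e c H) {z : orth Q} (hzH : z ∈ H) (hzm : Mono e z) (hz2 : z * z = 1)
    (hz1 : z ≠ 1) (hzn : ∃ i, (z : V ≃ₗ[F] V) (e i) ≠ -e i) :
    ∃ (k l : Fin 6) (σ : F) (f : V), k ≠ l ∧ σ * σ = 1 ∧ (z : V ≃ₗ[F] V) (e k) = σ • e k ∧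
      (z : V ≃ₗ[F] V) (e l) = σ • e l ∧ (z : V ≃ₗ[F] V) f = (-σ) • f ∧
      ∀ g ∈ H, (g : V ≃ₗ[F] V) f = f → Mono e g := by
  classical
  have h := hB.frame
  obtain ⟨π, s, hs, hπ⟩ := hzm.exists_perm h
  have hs0 : ∀ i, s i ≠ 0 := fun i => by rcases hs i with h' | h' <;> rw [h'] <;> simp
  have hss : ∀ i, s i * s i = 1 := fun i => sq_one (hs i)
  have hfix : ∀ k, π k = k → (z : V ≃ₗ[F] V) (e k) = s k • e k := fun k hk => by rw [hπ, hk]
  by_cases hmov : ∃ l, π l ≠ l
  · obtain ⟨l, hl⟩ := hmov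
    obtain ⟨hml, hsl⟩ := invol_perm h hs hπ hz2 l
    set m := π l with hm
    have hlm : l ≠ m := fun he => hl he.symm
    have hroot : ∀ σ : F, σ = 1 ∨ σ = -1 → ∃ f, (z : V ≃ₗ[F] V) f = (-σ) • f ∧
        ∀ g ∈ H, (g : V ≃ₗ[F] V) f = f → Mono e g := by
      intro σ hσ
      have hκ : (-σ * s l) * (-σ * s l) = 1 := by linear_combination (s l * s l) * sq_one hσ + hss l
      refine ⟨rt e l m (-σ * s l), ?_, fun g hg hgf => mono_of_fix_root hB hg hlm hκ hgf⟩
      rw [rt, map_add, map_smul, hπ, hπ, ← hm, hml, hsl, smul_smul, smul_add, smul_smul,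
        show -σ * s l * s l = -σ by linear_combination (-σ) * hss l,
        show -σ * (-σ * s l) = s l by linear_combination (s l) * sq_one hσ]
      exact add_comm _ _
    have hpair : ∀ a b, a ≠ b → π a = a → π b = b → s a = s b →
        ∃ (k l : Fin 6) (σ : F) (f : V), k ≠ l ∧ σ * σ = 1 ∧ (z : V ≃ₗ[F] V) (e k) = σ • e k ∧
          (z : V ≃ₗ[F] V) (e l) = σ • e l ∧ (z : V ≃ₗ[F] V) f = (-σ) • f ∧
          ∀ g ∈ H, (g : V ≃ₗ[F] V) f = f → Mono e g := by
      intro a b hab ha hb hsab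
      obtain ⟨f, hf, hfp⟩ := hroot (s a) (hs a)
      exact ⟨a, b, s a, f, hab, hss a, hfix a ha, by rw [hsab, hfix b hb], hf, hfp⟩
    obtain ⟨a, b, hab, hal, ham, -, hbl, hbm, -⟩ := exists_other_two l m l
    obtain ⟨a', b', hab', -, ha', -⟩ := exists_other_two' l m a b hlm (Ne.symm hal) (Ne.symm hbl)
      (Ne.symm ham) (Ne.symm hbm) hab
    simp only [Finset.mem_insert, Finset.mem_singleton, not_or] at ha'
    by_cases hout : ∃ x, x ≠ l ∧ x ≠ m ∧ π x ≠ x
    swap
    · push Not at hout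
      have fa := hout a hal ham
      have fb := hout b hbl hbm
      have fc := hout a' ha'.1 ha'.2.1
      rcases hs a with e1 | e1 <;> rcases hs b with e2 | e2 <;> rcases hs a' with e3 | e3 <;>
        first
          | exact hpair a b hab fa fb (e1.trans e2.symm)
          | exact hpair a a' (Ne.symm ha'.2.2.1) fa fc (e1.trans e3.symm)
          | exact hpair b a' (Ne.symm ha'.2.2.2) fb fc (e2.trans e3.symm)
    obtain ⟨x, hxl, hxm, hx⟩ := hout
    obtain ⟨hyx, hsx⟩ := invol_perm h hs hπ hz2 x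
    set y := π x with hy
    have hxy : x ≠ y := fun he => hx he.symm
    have hyl : y ≠ l := fun he => hxm (π.injective (he.trans hml.symm))
    have hym : y ≠ m := fun he => hxl (π.injective he)
    obtain ⟨n, n', hnn, huniv, hn, hn'⟩ := exists_other_two' l m x y hlm (Ne.symm hxl) (Ne.symm hyl)
      (Ne.symm hxm) (Ne.symm hym) hxy
    simp only [Finset.mem_insert, Finset.mem_singleton, not_or] at hn hn'
    obtain ⟨hnl, hnm, hnx, hny⟩ := hn
    obtain ⟨hn'l, hn'm, hn'x, hn'y⟩ := hn'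
    have hall : ∀ k : Fin 6, k = l ∨ k = m ∨ k = x ∨ k = y ∨ k = n ∨ k = n' := fun k => by
      have := Finset.mem_univ k
      rw [← huniv] at this
      simpa using this
    have hns : ∀ k, k = n ∨ k = n' → π k = n ∨ π k = n' := by
      intro k hk
      rcases hall (π k) with h' | h' | h' | h' | h' | h'
      · have := π.injective (h'.trans hml.symm); rcases hk with rfl | rfl <;> contradiction
      · have := π.injective h'; rcases hk with rfl | rfl <;> contradiction
      · have := π.injective (h'.trans hyx.symm); rcases hk with rfl | rfl <;> contradiction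
      · have := π.injective h'; rcases hk with rfl | rfl <;> contradiction
      · exact Or.inl h'
      · exact Or.inr h'
    by_cases hok : π n = n ∧ s n = s n'
    · exact hpair n n' hnn hok.1 ((hns n' (Or.inr rfl)).resolve_left fun he =>
        hnn (π.injective (hok.1.trans he.symm))) hok.2
    exfalso
    have hσl : (-s l) * (-s l) = 1 := by linear_combination hss l
    have hσx : (-s x) * (-s x) = 1 := by linear_combination hss x
    obtain ⟨hPH, -⟩ := rt_pair_mem hB hlm hxy hσl hσx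
    set P := refl Q (rt e l m (-s l)) * refl Q (rt e x y (-s x)) with hP
    set Y := z * P with hY
    have hY1 : ∀ k, k = l ∨ k = m ∨ k = x ∨ k = y → (Y : V ≃ₗ[F] V) (e k) = e k := by
      rintro k (rfl | rfl | rfl | rfl) <;> rw [hY, hP, orth_mul_apply, orth_mul_apply]
      · rw [refl_rt_other h (Ne.symm hxl) (Ne.symm hyl), refl_rt_left h hlm hσl, neg_neg, map_smul,
          hπ m, hsl, hml, smul_smul, hss, one_smul]
      · rw [refl_rt_other h (Ne.symm hxm) (Ne.symm hym), refl_rt_right h hlm hσl, neg_neg, map_smul,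
          hπ l, smul_smul, hss, one_smul]
      · rw [refl_rt_left h hxy hσx, neg_neg, map_smul, refl_rt_other h hyl hym, map_smul, hπ y,
          hsx, hyx, smul_smul, hss, one_smul]
      · rw [refl_rt_right h hxy hσx, neg_neg, map_smul, refl_rt_other h hxl hxm, map_smul, hπ x,
          smul_smul, hss, one_smul]
    have hY2 : ∀ k, k = n ∨ k = n' → (Y : V ≃ₗ[F] V) (e k) = (z : V ≃ₗ[F] V) (e k) := by
      rintro k (rfl | rfl) <;> rw [hY, hP, orth_mul_apply, orth_mul_apply]
      · rw [refl_rt_other h hnx hny, refl_rt_other h hnl hnm]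
      · rw [refl_rt_other h hn'x hn'y, refl_rt_other h hn'l hn'm]
    have hdY : dick Y = 1 := dick_one_of_mem hB (mul_mem hzH hPH)
    obtain ⟨v, hv, hYv⟩ : ∃ v, Q v ≠ 0 ∧ Y = refl Q v := by
      rcases hns n (Or.inl rfl) with h' | h'
      · have hn2 : π n' = n' := (hns n' (Or.inr rfl)).resolve_left fun he =>
          hnn (π.injective (h'.trans he.symm))
        have hne : s n ≠ s n' := fun he => hok ⟨h', he⟩
        have hkey : ∀ i j, (i = n ∧ j = n') ∨ (i = n' ∧ j = n) → s i = -1 → s j = 1 →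
            Y = refl Q (e i) := by
          intro i j hij hi hj
          refine h.orth_ext fun k => ?_
          rcases hall k with rfl | rfl | rfl | rfl | rfl | rfl
          · rw [hY1 k (Or.inl rfl), h.refl_other (by rcases hij with ⟨rfl, -⟩ | ⟨rfl, -⟩ <;> assumption)]
          · rw [hY1 m (Or.inr (Or.inl rfl)), h.refl_other (by rcases hij with ⟨rfl, -⟩ | ⟨rfl, -⟩ <;> assumption)]
          · rw [hY1 k (Or.inr (Or.inr (Or.inl rfl))), h.refl_other (by rcases hij with ⟨rfl, -⟩ | ⟨rfl, -⟩ <;> assumption)]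
          · rw [hY1 y (Or.inr (Or.inr (Or.inr rfl))), h.refl_other (by rcases hij with ⟨rfl, -⟩ | ⟨rfl, -⟩ <;> assumption)]
          · rw [hY2 k (Or.inl rfl), hπ, h']
            rcases hij with ⟨rfl, rfl⟩ | ⟨rfl, rfl⟩
            · rw [h.refl_self, hi, neg_one_smul]
            · rw [h.refl_other (Ne.symm hnn), hj, one_smul]
          · rw [hY2 k (Or.inr rfl), hπ, hn2]
            rcases hij with ⟨rfl, rfl⟩ | ⟨rfl, rfl⟩
            · rw [h.refl_other hnn, hj, one_smul]
            · rw [h.refl_self, hi, neg_one_smul]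
        rcases hs n with e1 | e1 <;> rcases hs n' with e2 | e2
        · exact absurd (e1.trans e2.symm) hne
        · exact ⟨e n', by rw [h.val]; exact h.ne_zero, hkey n' n (Or.inr ⟨rfl, rfl⟩) e2 e1⟩
        · exact ⟨e n, by rw [h.val]; exact h.ne_zero, hkey n n' (Or.inl ⟨rfl, rfl⟩) e1 e2⟩
        · exact absurd (e1.trans e2.symm) hne
      · obtain ⟨hn2, hsn⟩ := invol_perm h hs hπ hz2 n
        rw [h'] at hn2 hsn
        have hσn : (-s n) * (-s n) = 1 := by linear_combination hss n
        refine ⟨rt e n n' (-s n), by rw [val_rt h hnn hσn]; exact two_c_ne h, h.orth_ext fun k => ?_⟩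
        rcases hall k with rfl | rfl | rfl | rfl | rfl | rfl
        · rw [hY1 k (Or.inl rfl), refl_rt_other h (Ne.symm hnl) (Ne.symm hn'l)]
        · rw [hY1 m (Or.inr (Or.inl rfl)), refl_rt_other h (Ne.symm hnm) (Ne.symm hn'm)]
        · rw [hY1 k (Or.inr (Or.inr (Or.inl rfl))), refl_rt_other h (Ne.symm hnx) (Ne.symm hn'x)]
        · rw [hY1 y (Or.inr (Or.inr (Or.inr rfl))), refl_rt_other h (Ne.symm hny) (Ne.symm hn'y)]
        · rw [hY2 k (Or.inl rfl), refl_rt_left h hnn hσn, neg_neg, hπ, h']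
        · rw [hY2 k (Or.inr rfl), refl_rt_right h hnn hσn, neg_neg, hπ, hn2, hsn]
    rw [hYv, dick_refl h.nondeg hv] at hdY
    exact absurd hdY (by decide)
  · push Not at hmov
    obtain ⟨i, hi⟩ : ∃ i, s i = 1 := by
      obtain ⟨i, hi⟩ := hzn
      refine ⟨i, (hs i).resolve_right fun he => hi ?_⟩
      rw [hfix i (hmov i), he, neg_one_smul]
    obtain ⟨j, hj⟩ : ∃ j, s j = -1 := by
      by_contra hc
      push Not at hc
      exact hz1 (h.orth_ext fun k => by
        rw [hfix k (hmov k), (hs k).resolve_right (hc k), one_smul]; rfl)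
    have hij : i ≠ j := fun he => h.two_ne (by rw [he, hj] at hi; linear_combination -hi)
    obtain ⟨k, l, -, hki, hkj, -, -, -, -⟩ := exists_other_two i j i
    rcases hs k with hk | hk
    · refine ⟨k, i, 1, e j, hki, one_mul 1, by rw [hfix k (hmov k), hk], by rw [hfix i (hmov i), hi],
        by rw [hfix j (hmov j), hj], fun g hg hgf => hB.fix g hg j hgf⟩
    · refine ⟨k, j, -1, e i, hkj, by ring, by rw [hfix k (hmov k), hk], by rw [hfix j (hmov j), hj],
        by rw [hfix i (hmov i), hi, neg_neg], fun g hg hgf => hB.fix g hg i hgf⟩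

/-- A product of two orthogonal reflections centralising a monomial involution other than `±1` is
monomial. -/
theorem mono_of_centralizes (hB : Base Q e c H) {x : orth Q} {v w : V} (hxH : x ∈ H)
    (hxe : x = refl Q v * refl Q w) (hv : Q v ≠ 0) (hw : Q w ≠ 0) (hvw : polar Q v w = 0)
    {z : orth Q} (hzH : z ∈ H) (hzm : Mono e z) (hz2 : z * z = 1)
    (hz1 : z ≠ 1) (hzn : ∃ i, (z : V ≃ₗ[F] V) (e i) ≠ -e i) (hzx : z * x = x * z) : Mono e x := by
  classical
  have h := hB.frame
  obtain ⟨k, l, σ, f, hkl, hσ, hzk, hzl, hzf, hfp⟩ := exists_sides hB hzH hzm hz2 hz1 hzn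
  have hσ0 := left_ne_zero_of_mul_eq_one hσ
  have hxu : ∀ u : V, (x : V ≃ₗ[F] V) u =
      u - ((Q v)⁻¹ * polar Q v u) • v - ((Q w)⁻¹ * polar Q w u) • w := fun u => by
    rw [hxe, orth_mul_apply, refl_apply Q w, map_sub, map_smul, refl_apply_of_ortho hvw, refl_apply]
  have hx2 : x * x = 1 := by
    rw [hxe, mul_assoc, ← mul_assoc (refl Q w), ← (refl_commute hvw).eq, mul_assoc, refl_mul_self,
      mul_one, refl_mul_self]
  have hxx : ∀ u : V, (x : V ≃ₗ[F] V) ((x : V ≃ₗ[F] V) u) = u := fun u => by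
    rw [← orth_mul_apply, hx2]; rfl
  have hzc : ∀ (u : V) (t : F), (z : V ≃ₗ[F] V) u = t • u →
      (z : V ≃ₗ[F] V) ((x : V ≃ₗ[F] V) u) = t • (x : V ≃ₗ[F] V) u := fun u t hu => by
    rw [← orth_mul_apply, hzx, orth_mul_apply, hu, map_smul]
  have hdiff : ∀ (u u' : V), (z : V ≃ₗ[F] V) u = σ • u → (z : V ≃ₗ[F] V) u' = (-σ) • u' →
      polar Q u u' = 0 := fun u u' hu hu' => by
    have h1 := orth_polar z u u'
    rw [hu, hu', polar_smul_left, polar_smul_right, smul_eq_mul, smul_eq_mul] at h1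
    exact eq_zero_of_neg h (by linear_combination h1 + (polar Q u u') * hσ)
  set A := fun u : V => polar Q v u
  set B := fun u : V => polar Q w u
  by_cases hdet : A (e k) * B (e l) - A (e l) * B (e k) ≠ 0
  · have key : ∀ i, i = k ∨ i = l →
        (Q v)⁻¹ * A (e i) * A f + (Q w)⁻¹ * B (e i) * B f = 0 := by
      intro i hi
      have hzi : (z : V ≃ₗ[F] V) (e i) = σ • e i := by rcases hi with rfl | rfl <;> assumption
      have h1 := hdiff _ _ (hzc _ _ hzi) hzf
      rw [hxu, polar_sub_left, polar_sub_left, polar_smul_left, polar_smul_left, hdiff _ _ hzi hzf,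
        smul_eq_mul, smul_eq_mul] at h1
      linear_combination -h1
    have k1 := key k (Or.inl rfl)
    have k2 := key l (Or.inr rfl)
    have hAf : A f = 0 := by
      have : (A (e k) * B (e l) - A (e l) * B (e k)) * ((Q v)⁻¹ * A f) = 0 := by
        linear_combination B (e l) * k1 - B (e k) * k2
      exact (mul_eq_zero.1 ((mul_eq_zero.1 this).resolve_left hdet)).resolve_left (inv_ne_zero hv)
    have hBf : B f = 0 := by
      have : (A (e k) * B (e l) - A (e l) * B (e k)) * ((Q w)⁻¹ * B f) = 0 := by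
        linear_combination A (e k) * k2 - A (e l) * k1
      exact (mul_eq_zero.1 ((mul_eq_zero.1 this).resolve_left hdet)).resolve_left (inv_ne_zero hw)
    refine hfp x hxH ?_
    rw [hxe, orth_mul_apply, refl_apply_of_ortho hBf, refl_apply_of_ortho hAf]
  push Not at hdet
  obtain ⟨α, β, hne, hA0, hB0⟩ : ∃ α β : F, (α ≠ 0 ∨ β ≠ 0) ∧ α * A (e k) + β * A (e l) = 0 ∧
      α * B (e k) + β * B (e l) = 0 := by
    by_cases hb : B (e k) = 0 ∧ B (e l) = 0
    · by_cases ha : A (e k) = 0 ∧ A (e l) = 0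
      · exact ⟨1, 0, Or.inl one_ne_zero, by rw [ha.1]; ring, by rw [hb.1]; ring⟩
      · refine ⟨A (e l), -A (e k), ?_, by ring, by rw [hb.1, hb.2]; ring⟩
        by_contra hc
        push Not at hc
        exact ha ⟨neg_eq_zero.1 hc.2, hc.1⟩
    · refine ⟨B (e l), -B (e k), ?_, by linear_combination hdet, by ring⟩
      by_contra hc
      push Not at hc
      exact hb ⟨neg_eq_zero.1 hc.2, hc.1⟩
  set y := α • e k + β • e l with hy
  have hxy : (x : V ≃ₗ[F] V) y = y := by
    have e1 : polar Q v y = 0 := by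
      rw [hy, polar_add_right, polar_smul_right, polar_smul_right, smul_eq_mul, smul_eq_mul]; exact hA0
    have e2 : polar Q w y = 0 := by
      rw [hy, polar_add_right, polar_smul_right, polar_smul_right, smul_eq_mul, smul_eq_mul]; exact hB0
    rw [hxe, orth_mul_apply, refl_apply_of_ortho e2, refl_apply_of_ortho e1]
  by_cases hα : α = 0
  · refine hB.fix x hxH l ?_
    rw [hy, hα, zero_smul, zero_add, map_smul] at hxy
    exact smul_right_injective V (hne.resolve_left (fun h' => h' hα)) hxy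
  by_cases hβ : β = 0
  · refine hB.fix x hxH k ?_
    rw [hy, hβ, zero_smul, add_zero, map_smul] at hxy
    exact smul_right_injective V hα hxy
  obtain ⟨htk, htl, hto⟩ := flip_apply h hkl
  obtain ⟨π₀, s₀, -, hπ₀⟩ := hzm.exists_perm h
  set t := flipTwo Q e k l
  have htf : (t : V ≃ₗ[F] V) ((x : V ≃ₗ[F] V) f) = (x : V ≃ₗ[F] V) f := by
    have h0 : ∀ i, (z : V ≃ₗ[F] V) (e i) = σ • e i →
        coordAt Q e c i ((x : V ≃ₗ[F] V) f) = 0 := fun i hi => by
      have h1 := hdiff _ _ hi (hzc _ _ hzf)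
      rw [h.polar_coord, mul_eq_zero, or_iff_right (two_c_ne h)] at h1
      exact h1
    refine h.ext_coord fun i => ?_
    rw [flip_co h hkl]
    split_ifs with hi
    · rcases hi with rfl | rfl
      · rw [h0 i hzk, neg_zero]
      · rw [h0 i hzl, neg_zero]
    · rfl
  have hXH : x * t * x ∈ H := mul_mem (mul_mem hxH (flip_mem' hB k l)) hxH
  have hXm : Mono e (x * t * x) := hfp _ hXH (by rw [orth_mul_apply, orth_mul_apply, htf, hxx])
  have hty : (t : V ≃ₗ[F] V) y = -y := by
    rw [hy, map_add, map_smul, map_smul, htk, htl]; module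
  have hXy : ((x * t * x : orth Q) : V ≃ₗ[F] V) y = -y := by
    rw [orth_mul_apply, orth_mul_apply, hxy, hty, map_neg, hxy]
  obtain ⟨π, s, hs, hπ⟩ := hXm.exists_perm h
  have hs0 : ∀ i, s i ≠ 0 := fun i => by rcases hs i with h' | h' <;> rw [h'] <;> simp
  have hcy : ∀ i, coordAt Q e c i y = (if i = k then α else 0) + (if i = l then β else 0) := fun i => by
    simp [hy, h.coord_vec]
  have hkey : ∀ i, -coordAt Q e c (π i) y = s i * coordAt Q e c i y := fun i => by
    rw [← map_neg, ← hXy]; exact perm_coord h hπ y i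
  have hkk := hkey k
  rw [hcy k, if_pos rfl, if_neg hkl, add_zero, hcy] at hkk
  rcases eq_or_ne (π k) k with hpk | hpk
  · rw [hpk, if_pos rfl, if_neg hkl, add_zero] at hkk
    have hsk : s k = -1 := mul_right_cancel₀ hα (by linear_combination -hkk)
    have hll := hkey l
    rw [hcy l, if_neg (Ne.symm hkl), if_pos rfl, zero_add, hcy] at hll
    have hpl : π l = l := by
      by_contra hne'
      rw [if_neg (fun he => hkl (π.injective (hpk.trans he.symm))), if_neg hne', add_zero, neg_zero] at hll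
      exact mul_ne_zero (hs0 l) hβ hll.symm
    rw [hpl, if_neg (Ne.symm hkl), if_pos rfl, zero_add] at hll
    have hsl : s l = -1 := mul_right_cancel₀ hβ (by linear_combination -hll)
    have hsupp : ∀ i, (i = k ∨ i = l) → ∀ m, m ≠ k → m ≠ l →
        coordAt Q e c m ((x : V ≃ₗ[F] V) (e i)) = 0 := by
      intro i hi m hmk hml
      refine supp_of_flip_neg h hkl ?_ m hmk hml
      have hXi : ((x * t * x : orth Q) : V ≃ₗ[F] V) (e i) = -e i := by
        rcases hi with rfl | rfl
        · rw [hπ, hpk, hsk, neg_one_smul]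
        · rw [hπ, hpl, hsl, neg_one_smul]
      have h2 := congrArg (x : V ≃ₗ[F] V) hXi
      rwa [orth_mul_apply, orth_mul_apply, hxx, map_neg] at h2
    exact mono_of_plane hB hxH hkl (hsupp k (Or.inl rfl)) (hsupp l (Or.inr rfl))
  · rw [if_neg hpk, zero_add] at hkk
    by_cases hpl : π k = l
    · rw [if_pos hpl] at hkk
      have hκ : (β / α) * (β / α) = 1 := by
        rw [show β / α = -s k by field_simp; linear_combination -hkk]
        linear_combination sq_one (hs k)
      have hyr : y = α • rt e k l (β / α) := by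
        rw [hy, rt, smul_add, smul_smul, mul_div_cancel₀ _ hα]
      rw [hyr, map_smul] at hxy
      exact mono_of_fix_root hB hxH hkl hκ (smul_right_injective V hα hxy)
    · rw [if_neg hpl, neg_zero] at hkk
      exact absurd hkk.symm (mul_ne_zero (hs0 k) hα)

/-- Conjugates of double transpositions are monomial. -/
theorem mono_conj_double (hB : Base Q e c H) {g : orth Q} (hg : g ∈ H) {p q r s : Fin 6} (hpq : p ≠ q)
    (hpr : p ≠ r) (hps : p ≠ s) (hqr : q ≠ r) (hqs : q ≠ s) (hrs : r ≠ s) {σ τ : F}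
    (hσ : σ * σ = 1) (hτ : τ * τ = 1) :
    Mono e (g * (refl Q (rt e p q σ) * refl Q (rt e r s τ)) * g⁻¹) := by
  have h := hB.frame
  obtain ⟨z, hzH, hzm, hz2, hz1, hzn, -, hzx⟩ :=
    exists_central hB hg hpq hpr hps hqr hqs hrs hpr hσ hτ
  have hxe : g * (refl Q (rt e p q σ) * refl Q (rt e r s τ)) * g⁻¹ =
      refl Q ((g : V ≃ₗ[F] V) (rt e p q σ)) * refl Q ((g : V ≃ₗ[F] V) (rt e r s τ)) := by
    rw [← refl_conj, ← refl_conj]; group
  refine mono_of_centralizes hB (mul_mem (mul_mem hg (rt_pair_mem hB hpq hrs hσ hτ).1) (inv_mem hg))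
    hxe ?_ ?_ ?_ hzH hzm hz2 hz1 hzn hzx
  · rw [orth_map, val_rt h hpq hσ]; exact two_c_ne h
  · rw [orth_map, val_rt h hrs hτ]; exact two_c_ne h
  · rw [orth_polar, polar_rt h, co_rt h, co_rt h]; simp [hpr, hps, hqr, hqs]

/-- Conjugates of sign changes are monomial. -/
theorem mono_conj_flip (hB : Base Q e c H) {g : orth Q} (hg : g ∈ H) {i j : Fin 6} (hij : i ≠ j) :
    Mono e (refl Q ((g : V ≃ₗ[F] V) (e i)) * refl Q ((g : V ≃ₗ[F] V) (e j))) := by
  have h := hB.frame
  obtain ⟨k, l, hkl, hki, hkj, -, hli, hlj, -⟩ := exists_other_two i j i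
  have h1 : (1 : F) * 1 = 1 := one_mul 1
  have hm1 : (-1 : F) * (-1) = 1 := by ring
  have hflip : flipTwo Q e i j = (refl Q (rt e i j (-1 : F)) * refl Q (rt e k l (1 : F))) *
      (refl Q (rt e k l (1 : F)) * refl Q (rt e i j (1 : F))) := by
    rw [mul_assoc, ← mul_assoc (refl Q (rt e k l (1 : F))), refl_mul_self, one_mul]
    refine h.orth_ext fun m => ?_
    obtain ⟨hfi, hfj, hfo⟩ := flip_apply h hij
    rw [orth_mul_apply]
    rcases eq_or_ne m i with rfl | hmi
    · rw [hfi, refl_rt_left h hij h1, map_smul, refl_rt_right h hij hm1, smul_smul]; module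
    rcases eq_or_ne m j with rfl | hmj
    · rw [hfj, refl_rt_right h hij h1, map_smul, refl_rt_left h hij hm1, smul_smul]; module
    rw [hfo m hmi hmj, refl_rt_other h hmi hmj, refl_rt_other h hmi hmj]
  rw [← conj_flip, hflip, show ∀ a b : orth Q, g * (a * b) * g⁻¹ = (g * a * g⁻¹) * (g * b * g⁻¹) from
    fun a b => by group]
  exact (mono_conj_double hB hg hij (Ne.symm hki) (Ne.symm hli) (Ne.symm hkj) (Ne.symm hlj) hkl hm1 h1).mul
    (mono_conj_double hB hg hkl hki hkj hli hlj hij h1 h1)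

/-- The overgroup consists of monomial elements. -/
theorem mono_all (hB : Base Q e c H) {g : orth Q} (hg : g ∈ H) : Mono e g := by
  classical
  by_contra hnm
  have h := hB.frame
  have hcol : ∀ g ∈ H, ¬ Mono e g → ∀ k : Fin 6, ∃ i j : Fin 6, i ≠ j ∧
      coordAt Q e c k ((g : V ≃ₗ[F] V) (e i)) ≠ 0 ∧ coordAt Q e c k ((g : V ≃ₗ[F] V) (e j)) ≠ 0 ∧
      ∀ m, m ≠ i → m ≠ j → coordAt Q e c k ((g : V ≃ₗ[F] V) (e m)) = 0 := by
    intro g hg hnm k
    set v : Fin 6 → F := fun i => coordAt Q e c k ((g : V ≃ₗ[F] V) (e i)) with hv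
    have hfc : ∀ i j, i ≠ j → (v i = 0 ∧ v j = 0) ∨ 2 * (v i * v i + v j * v j) = 1 ∨
        (e k = v i • (g : V ≃ₗ[F] V) (e i) + v j • (g : V ≃ₗ[F] V) (e j) ∧
          ∀ m, m ≠ i → m ≠ j → v m = 0) := by
      intro i j hij
      rcases flip_col h ((orth_map g _).trans (h.val i)) ((orth_map g _).trans (h.val j))
        (orth_images h g hij) (mono_conj_flip hB hg hij) k with h' | h' | h'
      · exact Or.inl h'
      · exact Or.inr (Or.inl h')
      · refine Or.inr (Or.inr ⟨h', fun m hmi hmj => ?_⟩)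
        rw [hv]
        dsimp only
        rw [← polar_zero_iff h, h', polar_add_right, polar_smul_right, polar_smul_right,
          orth_images h g hmi, orth_images h g hmj, smul_zero, smul_zero, add_zero]
    have hsum : ∑ i, v i * v i = 1 := col_sum h g k
    obtain ⟨i₀, hz⟩ : ∃ i, v i = 0 := by
      by_contra hc
      push Not at hc
      have hp : ∀ i j, i ≠ j → 2 * (v i * v i + v j * v j) = 1 := by
        intro i j hij
        rcases hfc i j hij with ⟨h', -⟩ | h' | ⟨-, h'⟩
        · exact absurd h' (hc i)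
        · exact h'
        · obtain ⟨m, hmi, hmj, -⟩ := exists_outside i j i j
          exact absurd (h' m hmi hmj) (hc m)
      have hq : ∀ i, 4 * (v i * v i) = 1 := by
        intro i
        obtain ⟨a, b, hab, hai, -, -, hbi, -, -⟩ := exists_other_two i i i
        linear_combination hp i a (Ne.symm hai) + hp i b (Ne.symm hbi) - hp a b hab
      refine h.two_ne ?_
      have h6 : (4 : F) * ∑ i, v i * v i = 6 := by
        rw [Finset.mul_sum, Finset.sum_congr rfl fun i _ => hq i]; simp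
      rw [hsum] at h6
      linear_combination -h6
    have hhalf : ∀ i, v i ≠ 0 → 2 * (v i * v i) = 1 := by
      intro i hi
      rcases hfc i i₀ (fun he => hi (he ▸ hz)) with ⟨h', -⟩ | h' | ⟨h', -⟩
      · exact absurd h' hi
      · rwa [hz, mul_zero, add_zero] at h'
      · refine absurd (mono_of_map hB hg (i := i) (j := k) (t := (v i)⁻¹) ?_) hnm
        rw [h', hz, zero_smul, add_zero, smul_smul, inv_mul_cancel₀ hi, one_smul]
    obtain ⟨i, hi⟩ : ∃ i, v i ≠ 0 := by
      by_contra hc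
      push Not at hc
      simp [hc] at hsum
    obtain ⟨j, hji, hj⟩ : ∃ j, j ≠ i ∧ v j ≠ 0 := by
      by_contra hc
      push Not at hc
      rw [Finset.sum_eq_single i (fun m _ hm => by rw [hc m hm, zero_mul]) (by simp)] at hsum
      exact one_ne_zero (show (1 : F) = 0 by linear_combination hhalf i hi - 2 * hsum)
    refine ⟨i, j, Ne.symm hji, hi, hj, fun m hmi hmj => ?_⟩
    rcases hfc i j (Ne.symm hji) with ⟨h', -⟩ | h' | ⟨-, h'⟩
    · exact absurd h' hi
    · exact absurd (show (1 : F) = 0 by linear_combination h' - hhalf i hi - hhalf j hj) one_ne_zero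
    · exact h' m hmi hmj
  have hrow : ∀ i : Fin 6, ∃ p q : Fin 6, p ≠ q ∧
      coordAt Q e c p ((g : V ≃ₗ[F] V) (e i)) ≠ 0 ∧ coordAt Q e c q ((g : V ≃ₗ[F] V) (e i)) ≠ 0 ∧
      ∀ m, m ≠ p → m ≠ q → coordAt Q e c m ((g : V ≃ₗ[F] V) (e i)) = 0 := fun i => by
    obtain ⟨p, q, hpq, hp, hq, ho⟩ :=
      hcol g⁻¹ (inv_mem hg) (fun hm => hnm (by simpa using Mono.inv h hm)) i
    simp only [co_inv h] at hp hq ho
    exact ⟨p, q, hpq, hp, hq, ho⟩
  set v : Fin 6 → V := fun i => (g : V ≃ₗ[F] V) (e i) with hv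
  obtain ⟨p, q, hpq, hp, hq, hrow0⟩ := hrow 0
  obtain ⟨j₁, j₂, hj12, hj1, hj2, -⟩ := hcol g hg hnm p
  obtain ⟨j, hj0, hj⟩ : ∃ j, j ≠ 0 ∧ coordAt Q e c p (v j) ≠ 0 := by
    rcases eq_or_ne j₁ 0 with he | he
    · exact ⟨j₂, fun he' => hj12 (he.trans he'.symm), hj2⟩
    · exact ⟨j₁, he, hj1⟩
  obtain ⟨p', q', -, -, -, hrowj⟩ := hrow j
  have hjq : coordAt Q e c q (v j) ≠ 0 := by
    intro h0
    have h1 : polar Q (v 0) (v j) = 0 := orth_images h g (Ne.symm hj0)
    rw [h.polar_eq_sum, sum_two hpq _ (fun l h1 h2 => by rw [hrow0 l h1 h2, zero_mul]),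
      h0, mul_zero, add_zero, mul_eq_zero, or_iff_right (two_c_ne h)] at h1
    exact mul_ne_zero hp hj h1
  have hpj : p = p' ∨ p = q' := by
    by_contra hc; push Not at hc; exact hj (hrowj p hc.1 hc.2)
  have hqj : q = p' ∨ q = q' := by
    by_contra hc; push Not at hc; exact hjq (hrowj q hc.1 hc.2)
  have hsj : ∀ m, m ≠ p → m ≠ q → coordAt Q e c m (v j) = 0 := by
    intro m hmp hmq
    rcases hpj with rfl | rfl <;> rcases hqj with rfl | rfl
    · exact absurd rfl hpq
    · exact hrowj m hmp hmq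
    · exact hrowj m hmq hmp
    · exact absurd rfl hpq
  obtain ⟨r, hrp, hrq, -⟩ := exists_outside p q p q
  obtain ⟨l, -, -, hl, -, -⟩ := hcol g hg hnm r
  have hl0 : l ≠ 0 := fun he => hl (he ▸ hrow0 r hrp hrq)
  have hlj : l ≠ j := fun he => hl (he ▸ hsj r hrp hrq)
  obtain ⟨a, b, hab, -, ha, hb⟩ := exists_other_two' 0 j l (Classical.choose (exists_outside 0 j l l))
    (Ne.symm hj0) (Ne.symm hl0) (Ne.symm (Classical.choose_spec (exists_outside 0 j l l)).1)
    (Ne.symm hlj) (Ne.symm (Classical.choose_spec (exists_outside 0 j l l)).2.1)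
    (Ne.symm (Classical.choose_spec (exists_outside 0 j l l)).2.2.1)
  simp only [Finset.mem_insert, Finset.mem_singleton, not_or] at ha hb
  obtain ⟨ha0, haj, hal, -⟩ := ha
  obtain ⟨hb0, hbj, hbl, -⟩ := hb
  have h1 : (1 : F) * 1 = 1 := one_mul 1
  have hm1 : (-1 : F) * (-1) = 1 := by ring
  set m := (refl Q (rt e 0 j (-1 : F)) * refl Q (rt e a b (1 : F))) *
    (refl Q (rt e a b (1 : F)) * refl Q (rt e j l (-1 : F))) with hm
  have hGm : Mono e (g * m * g⁻¹) := by
    rw [hm, show ∀ x y : orth Q, g * (x * y) * g⁻¹ = (g * x * g⁻¹) * (g * y * g⁻¹) from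
      fun x y => by group]
    exact (mono_conj_double hB hg (Ne.symm hj0) (Ne.symm ha0) (Ne.symm hb0) (Ne.symm haj) (Ne.symm hbj)
      hab hm1 h1).mul (mono_conj_double hB hg hab haj hal hbj hbl (Ne.symm hlj) h1 hm1)
  have hm0 : m = refl Q (rt e 0 j (-1 : F)) * refl Q (rt e j l (-1 : F)) := by
    rw [hm, mul_assoc, ← mul_assoc (refl Q (rt e a b (1 : F))), refl_mul_self, one_mul]
  have hmi : (m : V ≃ₗ[F] V) (e 0) = e j := by
    rw [hm0, orth_mul_apply, refl_rt_other h (Ne.symm hj0) (Ne.symm hl0),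
      refl_rt_left h (Ne.symm hj0) hm1, neg_neg, one_smul]
  have hmj : (m : V ≃ₗ[F] V) (e j) = e l := by
    rw [hm0, orth_mul_apply, refl_rt_left h (Ne.symm hlj) hm1, neg_neg, one_smul,
      refl_rt_other h hl0 hlj]
  refine no_cycle h hGm (a := v 0) (b := v j) (d := v l) ?_ ?_ hpq hrp hrq hrow0 hsj hp hq hl
  · simp only [v, orth_mul_apply, orth_inv_apply_apply, hmi]
  · simp only [v, orth_mul_apply, orth_inv_apply_apply, hmj]

end Cfsg.Agent.H66.Frame6
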