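import Cfsg.Agent.H66.Frame6.Main
import Cfsg.Agent.H1.SpC6.FrameSix

/-!
Stabilisers of frames with six members are maximal in `Ω` over prime fields of odd order.
-/

set_option autoImplicit false

namespace Cfsg.Agent.H66.Frame6

open QuadraticMap hiding sq
open Cfsg.Agent.H5

/-- An overgroup of the monomial part of `Ω` either is monomial or contains `Ω`. -/
theorem mono_or_commutator_le {F V : Type*} [Field F] [Fintype F] [AddCommGroup V] [Module F V]
    [FiniteDimensional F V] [Finite V] {Q : QuadraticForm F V} {e : Fin 6 → V} {c : F}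
    (hfr : OrthFrame Q e c) (hp : (Fintype.card F).Prime) {H : Subgroup (orth Q)}
    (hH : H ≤ commutator (orth Q)) (hM : ∀ g ∈ commutator (orth Q), Mono e g → g ∈ H) :
    (∀ g ∈ H, Mono e g) ∨ commutator (orth Q) ≤ H := by
  by_cases hfix : ∀ g ∈ H, ∀ i, (g : V ≃ₗ[F] V) (e i) = e i → Mono e g
  · exact Or.inl fun g hg => mono_all ⟨hfr, hH, hM, hfix⟩ hg
  · push Not at hfix
    obtain ⟨g, hg, i, hgi, hgm⟩ := hfix
    exact Or.inr (Cfsg.Agent.H1.SpC6.commutator_le_of_fix hfr i hp hH hM hg hgi hgm)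

end Cfsg.Agent.H66.Frame6
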