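import Cfsg.Agent.H66.Frame6.Basic

/-!
Overgroups of the stabiliser of a frame with six members in which the stabiliser of every frame
vector is monomial: elements preserving a coordinate plane are monomial.
-/

set_option autoImplicit false

namespace Cfsg.Agent.H66.Frame6

open QuadraticMap hiding sq
open Cfsg.Agent.H5

variable {F V : Type*} [Field F] [AddCommGroup V] [Module F V] {Q : QuadraticForm F V}
  {e : Fin 6 → V} {c : F} {H : Subgroup (orth Q)}

/-- An overgroup of the monomial part of `Ω` in which frame vectors have monomial stabilisers. -/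
structure Base (Q : QuadraticForm F V) (e : Fin 6 → V) (c : F) (H : Subgroup (orth Q)) : Prop where
  frame : OrthFrame Q e c
  le : H ≤ commutator (orth Q)
  mono_mem : ∀ g ∈ commutator (orth Q), Mono e g → g ∈ H
  fix : ∀ g ∈ H, ∀ i, (g : V ≃ₗ[F] V) (e i) = e i → Mono e g

variable [FiniteDimensional F V] [Finite F] [Finite V]

theorem five_le (h : OrthFrame Q e c) : 5 ≤ Module.finrank F V := by rw [finrank_eq h]; omega

theorem pair_mem_commutator (h : OrthFrame Q e c) {v w : V} (hv : Q v ≠ 0) (hvw : Q v = Q w) :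
    refl Q v * refl Q w ∈ commutator (orth Q) := by
  have := five_le h
  have hh := (list_prod_mem_commutator_iff h.nondeg (Or.inr (by omega)) (vs := [v, w])
    (by simp [← hvw, hv])).2 ⟨by simp, by simp [← hvw, IsSquare.mul_self]⟩
  simpa using hh

theorem dick_one_of_mem (hB : Base Q e c H) {g : orth Q} (hg : g ∈ H) : dick g = 1 :=
  dick_eq_one_of_mem_commutator hB.frame.nondeg (five_le hB.frame) (hB.le hg)

theorem flip_mem' (hB : Base Q e c H) (i j : Fin 6) : flipTwo Q e i j ∈ H :=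
  hB.mono_mem _ (hB.frame.flip_mem (five_le hB.frame)) (hB.frame.mono_flip i j)

theorem rt_pair_mem (hB : Base Q e c H) {p q r s : Fin 6} (hpq : p ≠ q) (hrs : r ≠ s) {σ τ : F}
    (hσ : σ * σ = 1) (hτ : τ * τ = 1) :
    refl Q (rt e p q σ) * refl Q (rt e r s τ) ∈ H ∧
      Mono e (refl Q (rt e p q σ) * refl Q (rt e r s τ)) := by
  have h := hB.frame
  have hm := (mono_refl_rt h hpq hσ).mul (mono_refl_rt h hrs hτ)
  refine ⟨hB.mono_mem _ (pair_mem_commutator h ?_ ?_) hm, hm⟩
  · rw [val_rt h hpq hσ]; exact two_c_ne h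
  · rw [val_rt h hpq hσ, val_rt h hrs hτ]

/-- A signed permutation in `H` moving one frame line onto another. -/
theorem exists_move (hB : Base Q e c H) (j i : Fin 6) {t : F} (ht : t * t = 1) :
    ∃ m ∈ H, Mono e m ∧ (m : V ≃ₗ[F] V) (e j) = t • e i := by
  have h := hB.frame
  obtain ⟨k, l, hkl, hki, hkj, -, hli, hlj, -⟩ := exists_other_two i j i
  rcases eq_or_ne j i with rfl | hji
  · rcases sign_of_sq ht with rfl | rfl
    · exact ⟨1, one_mem H, Mono.one, by rw [one_smul]; rfl⟩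
    · refine ⟨flipTwo Q e j k, flip_mem' hB j k, h.mono_flip j k, ?_⟩
      rw [flipTwo, orth_mul_apply, h.refl_other hkj, h.refl_self, neg_one_smul]
  · have ht' : (-t) * (-t) = 1 := by linear_combination ht
    obtain ⟨hm, hmono⟩ := rt_pair_mem hB hji hkl ht' (one_mul (1 : F))
    refine ⟨_, hm, hmono, ?_⟩
    rw [orth_mul_apply, refl_rt_other h (Ne.symm hkj) (Ne.symm hlj), refl_rt_left h hji ht', neg_neg]

/-- Elements mapping a frame vector to a multiple of one are monomial. -/
theorem mono_of_map (hB : Base Q e c H) {g : orth Q} (hg : g ∈ H) {i j : Fin 6} {t : F}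
    (ht : (g : V ≃ₗ[F] V) (e i) = t • e j) : Mono e g := by
  have h := hB.frame
  obtain ⟨m, hm, hmm, hme⟩ := exists_move hB j i (scalar_of_smul h ht)
  have h1 := hB.fix _ (mul_mem hm hg) i (by
    rw [orth_mul_apply, ht, map_smul, hme, smul_smul, scalar_of_smul h ht, one_smul])
  have := (hmm.inv h).mul h1
  rwa [inv_mul_cancel_left] at this

theorem mul_mono_cancel (h : OrthFrame Q e c) {a b : orth Q} (ha : Mono e (a * b)) (hb : Mono e b) :
    Mono e a := by
  have := ha.mul (hb.inv h)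
  rwa [mul_inv_cancel_right] at this

theorem conj_flip (g : orth Q) (i j : Fin 6) :
    g * flipTwo Q e i j * g⁻¹ =
      refl Q ((g : V ≃ₗ[F] V) (e i)) * refl Q ((g : V ≃ₗ[F] V) (e j)) := by
  rw [← refl_conj, ← refl_conj, flipTwo]; group

theorem conj_flip_mem (hB : Base Q e c H) {g : orth Q} (hg : g ∈ H) (i j : Fin 6) :
    refl Q ((g : V ≃ₗ[F] V) (e i)) * refl Q ((g : V ≃ₗ[F] V) (e j)) ∈ H := by
  rw [← conj_flip]; exact mul_mem (mul_mem hg (flip_mem' hB i j)) (inv_mem hg)

theorem orth_images (h : OrthFrame Q e c) (g : orth Q) {i j : Fin 6} (hij : i ≠ j) :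
    polar Q ((g : V ≃ₗ[F] V) (e i)) ((g : V ≃ₗ[F] V) (e j)) = 0 := by
  rw [orth_polar]; exact h.ortho hij

/-- No monomial element cycles vectors with supports `pq`, `pq` and beyond. -/
theorem no_cycle (h : OrthFrame Q e c) {G : orth Q} (hG : Mono e G) {a b d : V}
    (hab : (G : V ≃ₗ[F] V) a = b) (hbd : (G : V ≃ₗ[F] V) b = d) {p q r : Fin 6} (hpq : p ≠ q)
    (hrp : r ≠ p) (hrq : r ≠ q) (ha : ∀ i, i ≠ p → i ≠ q → coordAt Q e c i a = 0)
    (hb : ∀ i, i ≠ p → i ≠ q → coordAt Q e c i b = 0)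
    (hap : coordAt Q e c p a ≠ 0) (haq : coordAt Q e c q a ≠ 0)
    (hd : coordAt Q e c r d ≠ 0) : False := by
  obtain ⟨π, s, hs, hπ⟩ := hG.exists_perm h
  have hs0 : ∀ i, s i ≠ 0 := fun i => by rcases hs i with h' | h' <;> rw [h'] <;> simp
  have key : ∀ (x : V) (k : Fin 6),
      coordAt Q e c (π k) ((G : V ≃ₗ[F] V) x) = s k * coordAt Q e c k x := by
    intro x k
    conv_lhs => rw [← h.expand x]
    simp only [map_sum, map_smul, hπ, smul_eq_mul, h.coord_vec]
    rw [Finset.sum_eq_single k (fun m _ hm => by simp [Ne.symm hm]) (by simp), if_pos rfl]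
    ring
  have hin : ∀ k, coordAt Q e c k a ≠ 0 → π k = p ∨ π k = q := by
    intro k hk
    by_contra hc
    push Not at hc
    exact mul_ne_zero (hs0 k) hk (by rw [← key, hab, hb _ hc.1 hc.2])
  obtain ⟨k, rfl⟩ := π.surjective r
  have hk := key b k
  rw [hbd] at hk
  have hk0 : coordAt Q e c k b ≠ 0 := fun h0 => hd (by rw [hk, h0, mul_zero])
  have hkpq : k = p ∨ k = q := by
    by_contra hc
    push Not at hc
    exact hk0 (hb k hc.1 hc.2)
  rcases hkpq with rfl | rfl
  · exact (hin _ hap).elim hrp hrq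
  · exact (hin _ haq).elim hrp hrq

/-- A three-cycle of frame vectors fixing the others. -/
theorem exists_cycle3 (hB : Base Q e c H) {i j l : Fin 6} (hij : i ≠ j) (hjl : j ≠ l) (hil : i ≠ l) :
    ∃ m ∈ H, Mono e m ∧ (m : V ≃ₗ[F] V) (e i) = e j ∧ (m : V ≃ₗ[F] V) (e j) = e l ∧
      ∀ k, k ≠ i → k ≠ j → k ≠ l → (m : V ≃ₗ[F] V) (e k) = e k := by
  have h := hB.frame
  refine ⟨dblSwap Q e i j j l, hB.mono_mem _ (h.dblSwap_mem (five_le h) hij hjl) (h.mono_dblSwap hij hjl),
    h.mono_dblSwap hij hjl, ?_, ?_, fun k hki hkj hkl => ?_⟩ <;> rw [dblSwap, orth_mul_apply]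
  · rw [h.swap_other hij hil, h.swap_left hij]
  · rw [h.swap_left hjl, h.swap_other (Ne.symm hil) (Ne.symm hjl)]
  · rw [h.swap_other hkj hkl, h.swap_other hki hkj]

/-- All entries of a block of four of square `1/4`: impossible. -/
theorem false_of_quarters (hB : Base Q e c H) {g : orth Q} (hg : g ∈ H) {a b i : Fin 6}
    (hab : a ≠ b) (hia : i ≠ a) (hib : i ≠ b)
    (hw : ∀ l, l ≠ a → l ≠ b → coordAt Q e c l ((g : V ≃ₗ[F] V) (e a)) = 0)
    (hv : coordAt Q e c a ((g : V ≃ₗ[F] V) (e i)) = 0 ∧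
      coordAt Q e c b ((g : V ≃ₗ[F] V) (e i)) = 0)
    (hγ : coordAt Q e c a ((g : V ≃ₗ[F] V) (e a)) ≠ 0)
    (hδ : coordAt Q e c b ((g : V ≃ₗ[F] V) (e a)) ≠ 0)
    (h4 : ∀ k, k ≠ a → k ≠ b →
      4 * (coordAt Q e c k ((g : V ≃ₗ[F] V) (e i)) * coordAt Q e c k ((g : V ≃ₗ[F] V) (e i))) = 1) :
    False := by
  have h := hB.frame
  set v := (g : V ≃ₗ[F] V) (e i) with hvd
  set w := (g : V ≃ₗ[F] V) (e a) with hwd
  have hqv : Q v = c := (orth_map g _).trans (h.val i)
  have hqw : Q w = c := (orth_map g _).trans (h.val a)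
  have hwv : polar Q w v = 0 := orth_images h g (Ne.symm hia)
  have hxH : refl Q w * refl Q v ∈ H := conj_flip_mem hB hg a i
  set γ := coordAt Q e c a w
  set δ := coordAt Q e c b w
  have hγδ : γ * γ + δ * δ = 1 := by
    rw [← row_sum h g a, sum_two hab _ (fun l h1 h2 => by rw [hw l h1 h2, zero_mul])]
  have hwe : w = γ • e a + δ • e b := eq_two h hab hw
  -- the coordinates `p, q, l`
  obtain ⟨p, q, hpq, hpa, hpb, hpi, hqa, hqb, hqi⟩ := exists_other_two a b i
  obtain ⟨l, l', hll, hla, hlb, -, -, -, -⟩ :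
      ∃ l l' : Fin 6, l ≠ l' ∧ l ≠ a ∧ l ≠ b ∧ (l ≠ p ∧ l ≠ q) ∧ l' ≠ a ∧ l' ≠ b ∧
        (l' ≠ p ∧ l' ≠ q) := by
    obtain ⟨t, u, htu, -, ht, hu⟩ := exists_other_two' a b p q hab (Ne.symm hpa) (Ne.symm hqa)
      (Ne.symm hpb) (Ne.symm hqb) hpq
    simp only [Finset.mem_insert, Finset.mem_singleton, not_or] at ht hu
    exact ⟨t, u, htu, ht.1, ht.2.1, ht.2.2, hu.1, hu.2.1, hu.2.2⟩
  have hne : ∀ k, k ≠ a → k ≠ b → coordAt Q e c k v ≠ 0 := fun k h1 h2 h0 => by
    have := h4 k h1 h2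
    rw [h0] at this
    simp at this
  set vp := coordAt Q e c p v
  set vq := coordAt Q e c q v
  have hvp : vp ≠ 0 := hne p hpa hpb
  have hvq : vq ≠ 0 := hne q hqa hqb
  have h2 := h.two_ne
  -- braid relation
  have hbraid : (refl Q v * refl Q (e p)) ^ 3 = 1 := by
    have hσ : (2 * vp) * (2 * vp) = 1 := by linear_combination h4 p hpa hpb
    have h1 : (refl Q v : V ≃ₗ[F] V) (e p) = (-(2 * vp)) • ((refl Q (e p) : V ≃ₗ[F] V) v) := by
      rw [refl_unit h hqv, refl_apply, h.val, h.polar_coord]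
      rw [show c⁻¹ * (2 * c * vp) = 2 * vp by field_simp [h.ne_zero]]
      simp only [smul_sub, smul_smul]
      rw [show -(2 * vp) * (2 * vp) = -1 by linear_combination -hσ]
      module
    have h3 : refl Q v * refl Q (e p) * refl Q v = refl Q (e p) * refl Q v * refl Q (e p) := by
      have e1 := refl_conj (refl Q v) (e p)
      have e2 := refl_conj (refl Q (e p)) v
      rw [refl_inv] at e1 e2
      rw [e1, e2, h1, refl_smul (neg_ne_zero.2 (mul_ne_zero h2 hvp))]
    calc (refl Q v * refl Q (e p)) ^ 3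
        = refl Q v * refl Q (e p) * refl Q v * (refl Q (e p) * refl Q v * refl Q (e p)) := by
          simp [pow_succ, mul_assoc]
      _ = refl Q v * refl Q (e p) * refl Q v * (refl Q v * refl Q (e p) * refl Q v) := by rw [h3]
      _ = 1 := by
          simp only [mul_assoc]
          rw [← mul_assoc (refl Q v) (refl Q v), refl_mul_self, one_mul,
            ← mul_assoc (refl Q (e p)) (refl Q (e p)), refl_mul_self, one_mul, refl_mul_self]
  have hva : polar Q v (e a) = 0 := (polar_zero_iff h a v).2 hv.1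
  have hwp : polar Q w (e p) = 0 := (polar_zero_iff h p w).2 (hw p hpa hpb)
  -- action on the plane
  have hRw : ∀ x y : F, (refl Q w : V ≃ₗ[F] V) (x • e a + y • e b) =
      (x - 2 * γ * (x * γ + y * δ)) • e a + (y - 2 * δ * (x * γ + y * δ)) • e b := fun x y => by
    rw [map_add, map_smul, map_smul, refl_unit h hqw, refl_unit h hqw]
    change x • (e a - (2 * γ) • w) + y • (e b - (2 * δ) • w) = _
    rw [hwe]
    module
  have hRa : ∀ x y : F, (refl Q (e a) : V ≃ₗ[F] V) (x • e a + y • e b) = (-x) • e a + y • e b :=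
    fun x y => by
    rw [map_add, map_smul, map_smul, h.refl_self, h.refl_other hab, smul_neg, neg_smul]
  have hfixw : ∀ k, k ≠ a → k ≠ b → (refl Q w : V ≃ₗ[F] V) (e k) = e k := fun k h1 h2 =>
    refl_apply_of_ortho ((polar_zero_iff h k w).2 (hw k h1 h2))
  -- first element
  set A := refl Q w * refl Q (e a) with hA
  have hy : (refl Q w * refl Q v * flipTwo Q e a p) ^ 3 = A ^ 3 := by
    have e1 : refl Q w * refl Q v * flipTwo Q e a p = A * (refl Q v * refl Q (e p)) := by
      simp only [flipTwo, hA, mul_assoc]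
      rw [← mul_assoc (refl Q v) (refl Q (e a)), (refl_commute hva).eq, mul_assoc]
    rw [e1, Commute.mul_pow, hbraid, mul_one]
    exact (Commute.mul_right (refl_commute hwv) (refl_commute hwp)).mul_left
      (Commute.mul_right (refl_commute (by rw [polar_comm]; exact hva))
        (refl_commute (h.ortho (Ne.symm hpa))))
  have hyH : A ^ 3 ∈ H := by rw [← hy]; exact pow_mem (mul_mem hxH (flip_mem' hB a p)) 3
  have hyl : (A : V ≃ₗ[F] V) (e l) = e l := by
    rw [hA, orth_mul_apply, h.refl_other (Ne.symm hla), hfixw l hla hlb]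
  have hym : Mono e (A ^ 3) := hB.fix _ hyH l (by
    simp only [pow_succ, pow_zero, one_mul, orth_mul_apply, hyl])
  set C := 2 * (γ * γ) - 1 with hC
  set S := 2 * (γ * δ) with hS
  have hA1 : ∀ x y : F, (A : V ≃ₗ[F] V) (x • e a + y • e b) =
      (x * C - y * S) • e a + (x * S + y * C) • e b := fun x y => by
    rw [hA, orth_mul_apply, hRa, hRw]
    congr 1 <;> congr 1
    · rw [hC, hS]; ring
    · rw [hC, hS]; linear_combination (-2 * y) * hγδ
  have hCS : C * C + S * S = 1 := by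
    rw [hC, hS]; linear_combination (4 * γ * γ) * hγδ
  have hA3 : ((A ^ 3 : orth Q) : V ≃ₗ[F] V) (e a) =
      (C * C * C - 3 * C * S * S) • e a + (3 * C * C * S - S * S * S) • e b := by
    have h0 : e a = (1 : F) • e a + (0 : F) • e b := by simp
    conv_lhs => rw [h0]
    simp only [pow_succ, pow_zero, one_mul, orth_mul_apply, hA1]
    congr 1 <;> congr 1 <;> ring
  -- second element
  have hσq : (vp / vq) * (vp / vq) = 1 := by
    have e1 := h4 p hpa hpb
    have e2 := h4 q hqa hqb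
    rw [div_mul_div_comm, div_eq_one_iff_eq (mul_ne_zero hvq hvq)]
    have h40 : (4 : F) ≠ 0 := by
      intro h0; exact mul_ne_zero h2 h2 (by linear_combination h0)
    exact mul_left_cancel₀ h40 (e1.trans e2.symm)
  set τ := -(vp / vq) with hτ
  have hττ : τ * τ = 1 := by rw [hτ]; linear_combination hσq
  set B₁ := rt e a b (-1 : F)
  set B₂ := rt e p q τ
  have hvB : polar Q v B₂ = 0 := by
    rw [polar_comm, polar_rt h, hτ, neg_mul, div_mul_cancel₀ _ hvq, add_neg_cancel, mul_zero]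
  have hvB1 : polar Q v B₁ = 0 := by
    rw [polar_comm, polar_rt h, hv.1, hv.2, mul_zero, add_zero, mul_zero]
  have hwB : polar Q w B₂ = 0 := by
    rw [polar_comm, polar_rt h, hw p hpa hpb, hw q hqa hqb, mul_zero, add_zero, mul_zero]
  have hBB : polar Q B₁ B₂ = 0 := by
    rw [polar_rt h, co_rt h, co_rt h]
    simp [Ne.symm hpa, Ne.symm hqa, Ne.symm hpb, Ne.symm hqb]
  obtain ⟨hmH, -⟩ := rt_pair_mem hB hab hpq (σ := (-1 : F)) (by ring) hττ
  set A' := refl Q w * refl Q B₁ with hA'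
  have hy' : (refl Q w * refl Q v * (refl Q B₁ * refl Q B₂)) ^ 2 = A' ^ 2 := by
    have e1 : refl Q w * refl Q v * (refl Q B₁ * refl Q B₂) = A' * (refl Q v * refl Q B₂) := by
      simp only [hA', mul_assoc]
      rw [← mul_assoc (refl Q v) (refl Q B₁), (refl_commute hvB1).eq, mul_assoc]
    have e2 : (refl Q v * refl Q B₂) ^ 2 = 1 := by
      rw [(refl_commute hvB).mul_pow, sq, sq, refl_mul_self, refl_mul_self, one_mul]
    rw [e1, Commute.mul_pow, e2, mul_one]
    exact (Commute.mul_right (refl_commute hwv) (refl_commute hwB)).mul_left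
      (Commute.mul_right (refl_commute (by rw [polar_comm]; exact hvB1)) (refl_commute hBB))
  have hy'H : A' ^ 2 ∈ H := by rw [← hy']; exact pow_mem (mul_mem hxH hmH) 2
  have hy'l : (A' : V ≃ₗ[F] V) (e l) = e l := by
    rw [hA', orth_mul_apply, refl_rt_other h hla hlb, hfixw l hla hlb]
  have hy'm : Mono e (A' ^ 2) := hB.fix _ hy'H l (by
    simp only [pow_succ, pow_zero, one_mul, orth_mul_apply, hy'l])
  have hA'1 : ∀ x y : F, (A' : V ≃ₗ[F] V) (x • e a + y • e b) =
      (-x * S - y * C) • e a + (x * C - y * S) • e b := fun x y => by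
    rw [hA', orth_mul_apply, map_add, map_smul, map_smul, refl_rt_left h hab (by ring),
      refl_rt_right h hab (by ring), neg_neg, one_smul, one_smul, add_comm (x • e b), hRw]
    congr 1 <;> congr 1
    · rw [hC, hS]; ring
    · rw [hC, hS]; linear_combination (-2 * x) * hγδ
  have hA'2 : ((A' ^ 2 : orth Q) : V ≃ₗ[F] V) (e a) =
      (S * S - C * C) • e a + (-(2 * S * C)) • e b := by
    have h0 : e a = (1 : F) • e a + (0 : F) • e b := by simp
    conv_lhs => rw [h0]
    simp only [pow_succ, pow_zero, one_mul, orth_mul_apply, hA'1]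
    congr 1 <;> congr 1 <;> ring
  have hco : ∀ x y : F, coordAt Q e c a (x • e a + y • e b) = x ∧
      coordAt Q e c b (x • e a + y • e b) = y := fun x y => by
    simp [h.coord_vec, hab, Ne.symm hab]
  have hS0 : S ≠ 0 := mul_ne_zero h2 (mul_ne_zero hγ hδ)
  have hC0 : C = 0 := by
    by_contra hC0
    have hsq : S * S = C * C := by
      by_contra hne
      refine mono_two h hy'm a hab ?_ ?_
      · rw [hA'2, (hco _ _).1]; exact sub_ne_zero.2 hne
      · rw [hA'2, (hco _ _).2]; exact neg_ne_zero.2 (mul_ne_zero (mul_ne_zero h2 hS0) hC0)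
    refine mono_two h hym a hab ?_ ?_
    · rw [hA3, (hco _ _).1]
      intro h0
      exact mul_ne_zero (mul_ne_zero h2 hC0) (mul_self_ne_zero.2 hC0)
        (by linear_combination -h0 - 3 * C * hsq)
    · rw [hA3, (hco _ _).2]
      intro h0
      exact mul_ne_zero (mul_ne_zero h2 hS0) (mul_self_ne_zero.2 hC0)
        (by linear_combination h0 + S * hsq)
  -- `w` is a root line
  have hγ2 : 2 * (γ * γ) = 1 := by rw [← sub_eq_zero, ← hC0]
  have hδ2 : 2 * (δ * δ) = 1 := by linear_combination 2 * hγδ - hγ2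
  set σ' := δ / γ
  have hσ' : σ' * σ' = 1 := by
    rw [div_mul_div_comm, div_eq_one_iff_eq (mul_ne_zero hγ hγ)]
    exact mul_left_cancel₀ h2 (hδ2.trans hγ2.symm)
  have hwr : refl Q w = refl Q (rt e a b σ') := by
    rw [← refl_smul hγ (rt e a b σ'), hwe, rt, smul_add, smul_smul, mul_div_cancel₀ _ hγ]
  obtain ⟨hnH, -⟩ := rt_pair_mem hB hab hpq hσ' (one_mul (1 : F))
  have hG : refl Q v * refl Q (rt e p q (1 : F)) ∈ H := by
    have := mul_mem hxH hnH
    rwa [← hwr, show refl Q w * refl Q v * (refl Q w * refl Q (rt e p q (1 : F))) =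
      refl Q v * refl Q (rt e p q (1 : F)) by
      rw [← mul_assoc, mul_assoc (refl Q w) (refl Q v) (refl Q w),
        (refl_commute (by rw [polar_comm]; exact hwv)).eq, ← mul_assoc (refl Q w),
        refl_mul_self, one_mul]] at this
  have hGm : Mono e (refl Q v * refl Q (rt e p q (1 : F))) := hB.fix _ hG a (by
    rw [orth_mul_apply, refl_rt_other h (Ne.symm hpa) (Ne.symm hqa), refl_apply_of_ortho hva])
  obtain ⟨l₀, hl₀a, hl₀b, hl₀p, hl₀q⟩ : ∃ k, k ≠ a ∧ k ≠ b ∧ k ≠ p ∧ k ≠ q := by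
    obtain ⟨t, u, -, -, ht, -⟩ := exists_other_two' a b p q hab (Ne.symm hpa) (Ne.symm hqa)
      (Ne.symm hpb) (Ne.symm hqb) hpq
    simp only [Finset.mem_insert, Finset.mem_singleton, not_or] at ht
    exact ⟨t, ht⟩
  refine mono_two h hGm l₀ hpq ?_ ?_ <;>
    rw [orth_mul_apply, refl_rt_other h hl₀p hl₀q, refl_unit h hqv, map_sub, map_smul, h.coord_vec]
  · rw [if_neg (Ne.symm hl₀p), zero_sub, smul_eq_mul]
    exact neg_ne_zero.2 (mul_ne_zero (mul_ne_zero h2 (hne l₀ hl₀a hl₀b)) hvp)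
  · rw [if_neg (Ne.symm hl₀q), zero_sub, smul_eq_mul]
    exact neg_ne_zero.2 (mul_ne_zero (mul_ne_zero h2 (hne l₀ hl₀a hl₀b)) hvq)

/-- An element preserving a coordinate plane is monomial. -/
theorem mono_of_plane (hB : Base Q e c H) {g : orth Q} (hg : g ∈ H) {a b : Fin 6} (hab : a ≠ b)
    (ha : ∀ l, l ≠ a → l ≠ b → coordAt Q e c l ((g : V ≃ₗ[F] V) (e a)) = 0)
    (hb : ∀ l, l ≠ a → l ≠ b → coordAt Q e c l ((g : V ≃ₗ[F] V) (e b)) = 0) : Mono e g := by
  classical
  have h := hB.frame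
  have h2 := h.two_ne
  by_contra hnm
  set w := (g : V ≃ₗ[F] V) (e a) with hw
  set v : Fin 6 → V := fun i => (g : V ≃ₗ[F] V) (e i) with hv
  have hqv : ∀ i, Q (v i) = c := fun i => (orth_map g _).trans (h.val i)
  have hvS : ∀ i, i ≠ a → i ≠ b → coordAt Q e c a (v i) = 0 ∧ coordAt Q e c b (v i) = 0 :=
    fun i hia hib => by
    set z := v i
    have h1 : polar Q w z = 0 := orth_images h g (Ne.symm hia)
    have h2' : polar Q ((g : V ≃ₗ[F] V) (e b)) z = 0 := orth_images h g (Ne.symm hib)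
    have e1 := row_sum h g a
    have e2 := row_sum h g b
    have e3 := orth_images h g hab
    rw [sum_two hab _ (fun l h1 h2 => by rw [ha l h1 h2, zero_mul])] at e1
    rw [sum_two hab _ (fun l h1 h2 => by rw [hb l h1 h2, zero_mul])] at e2
    rw [h.polar_eq_sum, sum_two hab _ (fun l h1 h2 => by rw [ha l h1 h2, zero_mul]), mul_eq_zero,
      or_iff_right (two_c_ne h)] at e3
    rw [h.polar_eq_sum, sum_two hab _ (fun l h1 h2 => by rw [ha l h1 h2, zero_mul]), mul_eq_zero,
      or_iff_right (two_c_ne h)] at h1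
    rw [h.polar_eq_sum, sum_two hab _ (fun l h1 h2 => by rw [hb l h1 h2, zero_mul]), mul_eq_zero,
      or_iff_right (two_c_ne h)] at h2'
    set P := coordAt Q e c a w
    set R := coordAt Q e c b w
    set P' := coordAt Q e c a ((g : V ≃ₗ[F] V) (e b))
    set R' := coordAt Q e c b ((g : V ≃ₗ[F] V) (e b))
    have hdet : P * R' - R * P' ≠ 0 := fun h0 => by
      have : (1 : F) = 0 := by
        linear_combination (P * R' - R * P') * h0 + (P * P' + R * R') * e3 -
          (P' * P' + R' * R') * e1 - e2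
      exact one_ne_zero this
    exact ⟨(mul_eq_zero.1 (show (P * R' - R * P') * coordAt Q e c a z = 0 by
        linear_combination R' * h1 - R * h2')).resolve_left hdet,
      (mul_eq_zero.1 (show (P * R' - R * P') * coordAt Q e c b z = 0 by
        linear_combination -P' * h1 + P * h2')).resolve_left hdet⟩
  set γ := coordAt Q e c a w
  set δ := coordAt Q e c b w
  have hγδ : γ * γ + δ * δ = 1 := by
    rw [← row_sum h g a, sum_two hab _ (fun l h1 h2 => by rw [ha l h1 h2, zero_mul])]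
  have hγ : γ ≠ 0 := fun h0 => hnm (mono_of_map hB hg (i := a) (j := b) (eq_one h fun l hl => by
    rcases eq_or_ne l a with rfl | hla
    exacts [h0, ha l hla hl]))
  have hδ : δ ≠ 0 := fun h0 => hnm (mono_of_map hB hg (i := a) (j := a) (eq_one h fun l hl => by
    rcases eq_or_ne l b with rfl | hlb
    exacts [h0, ha l hl hlb]))
  have hX : ∀ i j, i ≠ a → i ≠ b → j ≠ a → j ≠ b → Mono e (refl Q (v i) * refl Q (v j)) :=
    fun i j hia hib hja hjb => hB.fix _ (conj_flip_mem hB hg i j) a (by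
      rw [orth_mul_apply, refl_apply_of_ortho ((polar_zero_iff h a _).2 (hvS j hja hjb).1),
        refl_apply_of_ortho ((polar_zero_iff h a _).2 (hvS i hia hib).1)])
  by_cases hz : ∃ i k, i ≠ a ∧ i ≠ b ∧ k ≠ a ∧ k ≠ b ∧ coordAt Q e c k (v i) = 0
  · obtain ⟨i₀, k₀, hi₀a, hi₀b, hk₀a, hk₀b, hz⟩ := hz
    have hx : ∀ j, j ≠ a → j ≠ b → Mono e (refl Q w * refl Q (v j)) := by
      intro j hja hjb
      have h0 : Mono e (refl Q w * refl Q (v i₀)) := hB.fix _ (conj_flip_mem hB hg a i₀) k₀ (by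
        rw [orth_mul_apply, refl_apply_of_ortho ((polar_zero_iff h k₀ _).2 hz),
          refl_apply_of_ortho ((polar_zero_iff h k₀ _).2 (ha k₀ hk₀a hk₀b))])
      have := h0.mul (hX i₀ j hi₀a hi₀b hja hjb)
      rwa [mul_assoc (refl Q w), ← mul_assoc (refl Q (v i₀)), refl_mul_self, one_mul] at this
    have hent : ∀ j l, j ≠ a → j ≠ b → l ≠ a → l ≠ b → coordAt Q e c l (v j) ≠ 0 →
        2 * (coordAt Q e c l (v j) * coordAt Q e c l (v j)) = 1 := by
      intro j l hja hjb hla hlb hne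
      have hwj : polar Q w (v j) = 0 := orth_images h g (Ne.symm hja)
      rcases flip_col h ((orth_map g _).trans (h.val a)) (hqv j) hwj (hx j hja hjb) l with
        ⟨-, h0⟩ | h1 | h1
      · exact absurd h0 hne
      · rw [ha l hla hlb, mul_zero, zero_add] at h1; exact h1
      · refine absurd (mono_of_map hB hg (i := j) (j := l) (t := (coordAt Q e c l (v j))⁻¹) ?_) hnm
        rw [ha l hla hlb, zero_smul, zero_add] at h1
        rw [h1, smul_smul, inv_mul_cancel₀ hne, one_smul]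
    have hsupp : ∀ j, j ≠ a → j ≠ b → ∀ l m n, l ≠ m → n ≠ l → n ≠ m → l ≠ a → l ≠ b →
        coordAt Q e c l (v j) ≠ 0 → coordAt Q e c m (v j) ≠ 0 → coordAt Q e c n (v j) = 0 := by
      intro j hja hjb l m n hlm hnl hnm' hla hlb hl hm
      by_contra hn
      have happ : ((refl Q w * refl Q (v j) : orth Q) : V ≃ₗ[F] V) (e l) =
          e l - (2 * coordAt Q e c l (v j)) • v j := by
        rw [pair_unit h ((orth_map g _).trans (h.val a)) (hqv j) (orth_images h g (Ne.symm hja)),
          ha l hla hlb, mul_zero, zero_smul, sub_zero]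
      refine mono_two h (hx j hja hjb) l (Ne.symm hnm') ?_ ?_ <;>
        rw [happ, map_sub, map_smul, h.coord_vec, smul_eq_mul]
      · rw [if_neg (Ne.symm hlm), zero_sub]
        exact neg_ne_zero.2 (mul_ne_zero (mul_ne_zero h2 hl) hm)
      · rw [if_neg hnl, zero_sub]
        exact neg_ne_zero.2 (mul_ne_zero (mul_ne_zero h2 hl) hn)
    have hz0 : ∀ j l, j = a ∨ j = b → l ≠ a → l ≠ b → coordAt Q e c l (v j) = 0 := by
      rintro j l (rfl | rfl) hla hlb
      exacts [ha l hla hlb, hb l hla hlb]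
    obtain ⟨i, -, -, hia, -, -, hib, -, -⟩ := exists_other_two a b a
    have hnz : ∃ p, coordAt Q e c p (v i) ≠ 0 := by
      by_contra hc
      push Not at hc
      have := row_sum h g i
      simp [v] at hc
      simp [hc] at this
    obtain ⟨i, hia, hib, p, hp⟩ : ∃ i, i ≠ a ∧ i ≠ b ∧ ∃ p, coordAt Q e c p (v i) ≠ 0 := by
      obtain ⟨k, l, hkl, hka, hkb, -, -, -, -⟩ := exists_other_two a b a
      refine ⟨k, hka, hkb, ?_⟩
      by_contra hc
      push Not at hc
      have := row_sum h g k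
      simp [v] at hc
      simp [hc] at this
    have hpa : p ≠ a := fun he => hp (he ▸ (hvS i hia hib).1)
    have hpb : p ≠ b := fun he => hp (he ▸ (hvS i hia hib).2)
    obtain ⟨q, hqp, hq⟩ : ∃ q, q ≠ p ∧ coordAt Q e c q (v i) ≠ 0 := by
      by_contra hc
      push Not at hc
      exact hnm (mono_of_map hB hg (i := i) (j := p) (eq_one h hc))
    have hqa : q ≠ a := fun he => hq (he ▸ (hvS i hia hib).1)
    have hqb : q ≠ b := fun he => hq (he ▸ (hvS i hia hib).2)
    obtain ⟨j, hji, hj⟩ : ∃ j, j ≠ i ∧ coordAt Q e c p (v j) ≠ 0 := by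
      by_contra hc
      push Not at hc
      have := col_sum h g p
      rw [Finset.sum_eq_single i (fun m _ hm => by rw [show coordAt Q e c p ((g : V ≃ₗ[F] V) (e m)) = 0
        from hc m hm, zero_mul]) (by simp)] at this
      have h1 := hent i p hia hib hpa hpb hp
      exact one_ne_zero (show (1 : F) = 0 by linear_combination h1 - 2 * this)
    have hja : j ≠ a := fun he => hj (hz0 j p (Or.inl he) hpa hpb)
    have hjb : j ≠ b := fun he => hj (hz0 j p (Or.inr he) hpa hpb)
    have hsi : ∀ n, n ≠ p → n ≠ q → coordAt Q e c n (v i) = 0 := fun n hnp hnq =>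
      hsupp i hia hib p q n (Ne.symm hqp) hnp hnq hpa hpb hp hq
    have hjq : coordAt Q e c q (v j) ≠ 0 := by
      intro h0
      have h1 : polar Q (v i) (v j) = 0 := orth_images h g (Ne.symm hji)
      rw [h.polar_eq_sum, sum_two (Ne.symm hqp) _ (fun l h1 h2 => by rw [hsi l h1 h2, zero_mul]),
        h0, mul_zero, add_zero, mul_eq_zero, or_iff_right (two_c_ne h)] at h1
      exact mul_ne_zero hp hj h1
    have hsj : ∀ n, n ≠ p → n ≠ q → coordAt Q e c n (v j) = 0 := fun n hnp hnq =>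
      hsupp j hja hjb p q n (Ne.symm hqp) hnp hnq hpa hpb hj hjq
    obtain ⟨r, r', -, -, hr, -⟩ := exists_other_two' a b p q hab (Ne.symm hpa) (Ne.symm hqa)
      (Ne.symm hpb) (Ne.symm hqb) (Ne.symm hqp)
    simp only [Finset.mem_insert, Finset.mem_singleton, not_or] at hr
    obtain ⟨hra, hrb, hrp, hrq⟩ := hr
    obtain ⟨l, hl⟩ : ∃ l, coordAt Q e c r (v l) ≠ 0 := by
      by_contra hc
      push Not at hc
      have := col_sum h g r
      simp [v] at hc
      simp [hc] at this
    have hla : l ≠ a := fun he => hl (hz0 l r (Or.inl he) hra hrb)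
    have hlb : l ≠ b := fun he => hl (hz0 l r (Or.inr he) hra hrb)
    have hli : l ≠ i := fun he => hl (he ▸ hsi r hrp hrq)
    have hlj : l ≠ j := fun he => hl (he ▸ hsj r hrp hrq)
    obtain ⟨m, hm, -, hmi, hmj, hmo⟩ := exists_cycle3 hB (Ne.symm hji) (Ne.symm hlj) (Ne.symm hli)
    have hGfix : ((g * m * g⁻¹ : orth Q) : V ≃ₗ[F] V) (e a) = e a := by
      obtain ⟨x, hx⟩ : ∃ x, (g : V ≃ₗ[F] V) x = e a := (g : V ≃ₗ[F] V).surjective _
      have hxs : ∀ k, k ≠ a → k ≠ b → coordAt Q e c k x = 0 := fun k hka hkb => by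
        have e1 := orth_polar g (e k) x
        rw [hx, (polar_zero_iff h a _).2 (hvS k hka hkb).1, h.polar_coord] at e1
        exact (mul_eq_zero.1 e1.symm).resolve_left (two_c_ne h)
      rw [← hx, orth_mul_apply, orth_mul_apply, orth_inv_apply_apply, eq_two h hab hxs, map_add,
        map_smul, map_smul, hmo a (Ne.symm hia) (Ne.symm hja) (Ne.symm hla),
        hmo b (Ne.symm hib) (Ne.symm hjb) (Ne.symm hlb)]
    have hGm := hB.fix _ (mul_mem (mul_mem hg hm) (inv_mem hg)) a hGfix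
    refine no_cycle h hGm (a := v i) (b := v j) (d := v l) ?_ ?_ (Ne.symm hqp) hrp hrq hsi hsj hp hq hl
    · simp only [v, orth_mul_apply, orth_inv_apply_apply, hmi]
    · simp only [v, orth_mul_apply, orth_inv_apply_apply, hmj]
  · push Not at hz
    obtain ⟨i, j, hij, hia, hib, -, hja, hjb, -⟩ := exists_other_two a b a
    obtain ⟨l, m, hlm, -, hl, hm⟩ := exists_other_two' a b i j hab (Ne.symm hia) (Ne.symm hja)
      (Ne.symm hib) (Ne.symm hjb) hij
    simp only [Finset.mem_insert, Finset.mem_singleton, not_or] at hl hm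
    refine false_of_quarters hB hg hab hia hib ha (hvS i hia hib) hγ hδ fun k hka hkb => ?_
    have hs : ∀ i j u, i ≠ a → i ≠ b → j ≠ a → j ≠ b → u ≠ a → u ≠ b → u ≠ i → u ≠ j → i ≠ j →
        2 * (coordAt Q e c k (v i) * coordAt Q e c k (v i) +
          coordAt Q e c k (v j) * coordAt Q e c k (v j)) = 1 := by
      intro i j u hia hib hja hjb hua hub hui huj hij
      rcases flip_col h (hqv i) (hqv j) (orth_images h g hij) (hX i j hia hib hja hjb) k with
        ⟨h0, -⟩ | h1 | h1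
      · exact absurd h0 (hz i k hia hib hka hkb)
      · exact h1
      · refine absurd ?_ (hz u k hua hub hka hkb)
        rw [← polar_zero_iff h, h1, polar_add_right, polar_smul_right, polar_smul_right,
          orth_images h g hui, orth_images h g huj, smul_zero, smul_zero, add_zero]
    have e1 := hs i j l hia hib hja hjb hl.1 hl.2.1 hl.2.2.1 hl.2.2.2 hij
    have e2 := hs i l j hia hib hl.1 hl.2.1 hja hjb (Ne.symm hij) (Ne.symm hl.2.2.2) (Ne.symm hl.2.2.1)
    have e3 := hs j l i hja hjb hl.1 hl.2.1 hia hib hij (Ne.symm hl.2.2.1) (Ne.symm hl.2.2.2)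
    linear_combination e1 + e2 - e3

/-- An element commuting with a sign change is monomial. -/
theorem mono_of_commute (hB : Base Q e c H) {g : orth Q} (hg : g ∈ H) {a b : Fin 6} (hab : a ≠ b)
    (hc : g * flipTwo Q e a b = flipTwo Q e a b * g) : Mono e g := by
  have h := hB.frame
  have key : ∀ i, i = a ∨ i = b → ∀ l, l ≠ a → l ≠ b →
      coordAt Q e c l ((g : V ≃ₗ[F] V) (e i)) = 0 := by
    intro i hi l hla hlb
    have h1 := congrArg (fun z : orth Q => coordAt Q e c l ((z : V ≃ₗ[F] V) (e i))) hc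
    have e1 : (flipTwo Q e a b : V ≃ₗ[F] V) (e i) = -e i := by
      rcases hi with rfl | rfl
      · rw [flipTwo, orth_mul_apply, h.refl_other (Ne.symm hab), h.refl_self]
      · rw [flipTwo, orth_mul_apply, h.refl_self, map_neg, h.refl_other hab]
    have e2 : ∀ x, coordAt Q e c l ((flipTwo Q e a b : V ≃ₗ[F] V) x) = coordAt Q e c l x := by
      intro x
      rw [flipTwo, orth_mul_apply, refl_apply, refl_apply, map_sub, map_smul,
        h.coord_other hla, smul_zero, sub_zero, map_sub, map_smul, h.coord_other hlb, smul_zero,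
        sub_zero]
    simp only [orth_mul_apply, e1, map_neg, e2] at h1
    exact (mul_eq_zero.1 (show (2 : F) * coordAt Q e c l ((g : V ≃ₗ[F] V) (e i)) = 0 by
      linear_combination -h1)).resolve_left h.two_ne
  exact mono_of_plane hB hg hab (key a (Or.inl rfl)) (key b (Or.inr rfl))

/-- An element mapping a coordinate plane into another one is monomial. -/
theorem mono_of_planes (hB : Base Q e c H) {g : orth Q} (hg : g ∈ H) {a b p q : Fin 6} (hab : a ≠ b)
    (hpq : p ≠ q) (ha : ∀ l, l ≠ p → l ≠ q → coordAt Q e c l ((g : V ≃ₗ[F] V) (e a)) = 0)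
    (hb : ∀ l, l ≠ p → l ≠ q → coordAt Q e c l ((g : V ≃ₗ[F] V) (e b)) = 0) : Mono e g := by
  have h := hB.frame
  obtain ⟨m₁, hm₁, hm₁m, hm₁e⟩ := exists_move hB p a (one_mul (1 : F))
  rw [one_smul] at hm₁e
  obtain ⟨d, s, hs, hd⟩ := mono_col h hm₁m q
  have hda : d ≠ a := fun he => by
    have h1 := orth_polar m₁ (e p) (e q)
    rw [hm₁e, hd, he, h.ortho hpq, polar_smul_right, polar_self', h.val, smul_eq_mul] at h1
    exact mul_ne_zero (left_ne_zero_of_mul_eq_one hs) (two_c_ne h) h1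
  obtain ⟨m₂, hm₂, hm₂m, hm₂a, hm₂d⟩ : ∃ m ∈ H, Mono e m ∧ (m : V ≃ₗ[F] V) (e a) = e a ∧
      ∃ t : F, (m : V ≃ₗ[F] V) (e d) = t • e b := by
    rcases eq_or_ne d b with rfl | hdb
    · exact ⟨1, one_mem H, Mono.one, rfl, 1, by rw [one_smul]; rfl⟩
    obtain ⟨k, l, hkl, hka, hkb, hkd, hla, hlb, hld⟩ := exists_other_two a b d
    obtain ⟨hmm, hmono⟩ := rt_pair_mem hB hdb hkl (σ := (-1 : F)) (by ring) (one_mul (1 : F))
    refine ⟨_, hmm, hmono, ?_, 1, ?_⟩
    · rw [orth_mul_apply, refl_rt_other h (Ne.symm hka) (Ne.symm hla),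
        refl_rt_other h (Ne.symm hda) hab]
    · rw [orth_mul_apply, refl_rt_other h (Ne.symm hkd) (Ne.symm hld),
        refl_rt_left h hdb (by ring), neg_neg]
  obtain ⟨t, ht⟩ := hm₂d
  have himg : ∀ i, (∀ l, l ≠ p → l ≠ q → coordAt Q e c l ((g : V ≃ₗ[F] V) (e i)) = 0) →
      ∀ l, l ≠ a → l ≠ b →
        coordAt Q e c l (((m₂ * m₁ * g : orth Q) : V ≃ₗ[F] V) (e i)) = 0 := by
    intro i hi l hla hlb
    rw [orth_mul_apply, orth_mul_apply, eq_two h hpq hi]
    simp [hm₁e, hd, hm₂a, ht, h.coord_vec, hla, hlb]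
  have h1 := mono_of_plane hB (mul_mem (mul_mem hm₂ hm₁) hg) hab (himg a ha) (himg b hb)
  have := (Mono.inv h (hm₂m.mul hm₁m)).mul h1
  rwa [inv_mul_cancel_left] at this

end Cfsg.Agent.H66.Frame6
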