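import Cfsg.Agent.H66.Frame6.Fusion

/-!
Overgroups of a frame stabiliser in which frame vectors have monomial stabilisers also have monomial
stabilisers of the other root vectors.
-/

set_option autoImplicit false

namespace Cfsg.Agent.H66.Frame6

open QuadraticMap hiding sq
open Cfsg.Agent.H5

variable {F V : Type*} [Field F] [AddCommGroup V] [Module F V] {Q : QuadraticForm F V}
  {e : Fin 6 → V} {c : F} {H : Subgroup (orth Q)} [FiniteDimensional F V] [Finite F] [Finite V]

theorem exists_outside : ∀ a b c d : Fin 6, ∃ l : Fin 6, l ≠ a ∧ l ≠ b ∧ l ≠ c ∧ l ≠ d := by decide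

theorem perm_coord (h : OrthFrame Q e c) {z : orth Q} {π : Equiv.Perm (Fin 6)} {s : Fin 6 → F}
    (hπ : ∀ i, (z : V ≃ₗ[F] V) (e i) = s i • e (π i)) (x : V) (k : Fin 6) :
    coordAt Q e c (π k) ((z : V ≃ₗ[F] V) x) = s k * coordAt Q e c k x := by
  conv_lhs => rw [← h.expand x]
  simp only [map_sum, map_smul, hπ, smul_eq_mul, h.coord_vec]
  rw [Finset.sum_eq_single k (fun m _ hm => by simp [Ne.symm hm]) (by simp), if_pos rfl]
  ring

/-- A conjugate of a double transposition sharing a root with the fixed one is monomial. -/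
theorem mono_root_pair (hB : Base Q e c H) {g : orth Q} (hg : g ∈ H) {p q r t : Fin 6} (hpq : p ≠ q)
    (hpr : p ≠ r) (hpt : p ≠ t) (hqr : q ≠ r) (hqt : q ≠ t) (hrt : r ≠ t) {σ κ : F}
    (hσ : σ * σ = 1) (hκ : κ * κ = 1) (hgf : (g : V ≃ₗ[F] V) (rt e p q σ) = rt e p q σ) :
    Mono e (refl Q (rt e p q σ) * refl Q ((g : V ≃ₗ[F] V) (rt e r t κ))) := by
  classical
  have h := hB.frame
  have h20 := two_c_ne h
  set f := rt e p q σ with hf
  set v := (g : V ≃ₗ[F] V) (rt e r t κ) with hv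
  have hqf : Q f = 2 * c := val_rt h hpq hσ
  have hqv : Q v = 2 * c := by rw [hv, orth_map, val_rt h hrt hκ]
  have hfv : polar Q f v = 0 := by
    rw [hv, ← hgf, orth_polar, hf, polar_rt h, co_rt h, co_rt h]; simp [hpr, hpt, hqr, hqt]
  have hxe : g * (refl Q f * refl Q (rt e r t κ)) * g⁻¹ = refl Q f * refl Q v := by
    rw [show g * (refl Q f * refl Q (rt e r t κ)) * g⁻¹ =
      (g * refl Q f * g⁻¹) * (g * refl Q (rt e r t κ) * g⁻¹) by group, refl_conj, refl_conj, hgf]
  set x := refl Q f * refl Q v with hx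
  have hxH : x ∈ H := by
    rw [← hxe]; exact mul_mem (mul_mem hg (rt_pair_mem hB hpq hrt hσ hκ).1) (inv_mem hg)
  have hxfix : ∀ k, k ≠ p → k ≠ q → coordAt Q e c k v = 0 → Mono e x := fun k hkp hkq hk =>
    hB.fix x hxH k (by
      rw [hx, orth_mul_apply, refl_apply_of_ortho ((polar_zero_iff h k v).2 hk), hf,
        refl_rt_other h hkp hkq])
  obtain ⟨z, hzH, hzm, hz2, hz1, ⟨i₀, hi₀⟩, hzu, hzx⟩ :=
    exists_central hB hg hpq hpr hpt hqr hqt hrt hpr hσ hκ
  rw [hxe] at hzx
  obtain ⟨π, s, hs, hπ⟩ := hzm.exists_perm h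
  have hs0 : ∀ i, s i ≠ 0 := fun i => by rcases hs i with h' | h' <;> rw [h'] <;> simp
  have hss : ∀ i, s i * s i = 1 := fun i => sq_one (hs i)
  have hxneg : ∀ y : V, (x : V ≃ₗ[F] V) y = -y → (x : V ≃ₗ[F] V) ((z : V ≃ₗ[F] V) y) = -(z : V ≃ₗ[F] V) y :=
    fun y hy => by rw [← orth_mul_apply, ← hzx, orth_mul_apply, hy, map_neg]
  have hxf : (x : V ≃ₗ[F] V) f = -f := by
    rw [hx, orth_mul_apply, refl_apply_of_ortho (v := v) (by rw [polar_comm]; exact hfv),
      refl_apply_self (by rw [hqf]; exact h20)]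
  have hxv : (x : V ≃ₗ[F] V) v = -v := by
    rw [hx, orth_mul_apply, refl_apply_self (by rw [hqv]; exact h20), map_neg,
      refl_apply_of_ortho hfv]
  obtain ⟨α, β, hαβ⟩ := Submodule.mem_span_pair.1 (mem_of_pair_neg h (hxneg f hxf))
  have hzf : ∀ l, coordAt Q e c l ((z : V ≃ₗ[F] V) f) =
      (if l = π p then s p else 0) + σ * (if l = π q then s q else 0) := fun l => by
    simp [hf, rt, hπ, h.coord_vec]
  by_cases hβ : β ≠ 0
  · obtain ⟨l, hlp, hlq, hlπp, hlπq⟩ := exists_outside p q (π p) (π q)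
    refine hxfix l hlp hlq ?_
    have h1 := congrArg (coordAt Q e c l) hαβ
    rw [map_add, map_smul, map_smul, hzf, if_neg hlπp, if_neg hlπq, mul_zero, add_zero, hf,
      co_rt h, if_neg hlp, if_neg hlq, mul_zero, add_zero, smul_zero, zero_add, smul_eq_mul] at h1
    exact (mul_eq_zero.1 h1).resolve_left hβ
  push Not at hβ
  rw [hβ, zero_smul, add_zero] at hαβ
  have hπne : π p ≠ π q := fun he => hpq (π.injective he)
  have hin : ∀ i, (i = p ∨ i = q) → π i = p ∨ π i = q := by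
    intro i hi
    by_contra hc
    push Not at hc
    have h1 := congrArg (coordAt Q e c (π i)) hαβ
    rw [map_smul, hzf, hf, co_rt h, if_neg hc.1, if_neg hc.2, mul_zero, add_zero, smul_zero] at h1
    rcases hi with rfl | rfl
    · rw [if_pos rfl, if_neg hπne, mul_zero, add_zero] at h1
      exact hs0 _ h1.symm
    · rw [if_pos rfl, if_neg (Ne.symm hπne), zero_add] at h1
      exact mul_ne_zero (left_ne_zero_of_mul_eq_one hσ) (hs0 _) h1.symm
  have hpl : ∀ i, (i = p ∨ i = r) → π i = p ∨ π i = r := by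
    intro i hi
    by_contra hc
    push Not at hc
    have e1 : (flipTwo Q e p r : V ≃ₗ[F] V) (e i) = -e i := by
      rcases hi with rfl | rfl
      exacts [(flip_apply h hpr).1, (flip_apply h hpr).2.1]
    have h1 := congrArg (fun k : orth Q => (k : V ≃ₗ[F] V) (e i)) hzu
    simp only [orth_mul_apply] at h1
    rw [e1, map_neg] at h1
    have h3 := supp_of_flip_neg h hpr h1.symm (π i) hc.1 hc.2
    rw [hπ, map_smul, h.coord_self, smul_eq_mul, mul_one] at h3
    exact hs0 i h3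
  have hp' : π p = p := by
    rcases hin p (Or.inl rfl) with h1 | h1
    · exact h1
    · rcases hpl p (Or.inl rfl) with h2 | h2
      · exact h2
      · exact absurd (h1.symm.trans h2) hqr
  have hq' : π q = q := by
    rcases hin q (Or.inr rfl) with h1 | h1
    · exact absurd (π.injective (h1.trans hp'.symm)).symm hpq
    · exact h1
  have hr' : π r = r := by
    rcases hpl r (Or.inr rfl) with h1 | h1
    · exact absurd (π.injective (h1.trans hp'.symm)).symm hpr
    · exact h1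
  obtain ⟨a₁, b₁, hab₁⟩ := Submodule.mem_span_pair.1 (mem_of_pair_neg h (hxneg v hxv))
  have hαp : s p = α := by
    have h1 := congrArg (coordAt Q e c p) hαβ
    rw [map_smul, hzf, hp', hq', hf, co_rt h] at h1
    simpa [hpq] using h1.symm
  have hαq : s q = α := by
    have h1 := congrArg (coordAt Q e c q) hαβ
    rw [map_smul, hzf, hp', hq', hf, co_rt h] at h1
    simp [Ne.symm hpq] at h1
    exact mul_left_cancel₀ (left_ne_zero_of_mul_eq_one hσ) (by linear_combination -h1)
  have hzv : (z : V ≃ₗ[F] V) v = b₁ • v := by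
    have h1 := orth_polar z f v
    rw [← hαβ, ← hab₁, hfv, polar_smul_left, polar_add_right, polar_smul_right, polar_smul_right,
      hfv, polar_self', hqf, smul_zero, add_zero, smul_eq_mul, smul_eq_mul] at h1
    have ha₁ : a₁ = 0 :=
      (mul_eq_zero.1 ((mul_eq_zero.1 h1).resolve_left (hαp ▸ hs0 p))).resolve_right
        (mul_ne_zero h.two_ne h20)
    rw [← hab₁, ha₁, zero_smul, zero_add]
  have hb₁ : b₁ * b₁ = 1 := by
    have h1 := orth_map z v
    rw [hzv, QuadraticMap.map_smul, hqv, smul_eq_mul] at h1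
    exact mul_right_cancel₀ h20 (by rw [h1, one_mul])
  have hzero : ∀ k, π k = k → s k ≠ b₁ → coordAt Q e c k v = 0 := by
    intro k hk hne
    have h1 := perm_coord h hπ v k
    rw [hk, hzv, map_smul, smul_eq_mul] at h1
    exact (mul_eq_zero.1 (show (s k - b₁) * coordAt Q e c k v = 0 by linear_combination -h1)).resolve_left
      (sub_ne_zero.2 hne)
  by_cases hpb : s p = b₁
  swap
  · obtain ⟨k, l, hkl, hkp, hkq, -, hlp, hlq, -⟩ := exists_other_two p q p
    obtain ⟨hmH, hmM⟩ := rt_pair_mem hB hpq hkl hσ (one_mul (1 : F))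
    have he : x * (refl Q f * refl Q (rt e k l (1 : F))) = refl Q v * refl Q (rt e k l (1 : F)) := by
      rw [hx, (refl_commute hfv).eq, mul_assoc, ← mul_assoc (refl Q f), refl_mul_self, one_mul]
    have hm := hB.fix _ (he ▸ mul_mem hxH hmH) p (by
      rw [orth_mul_apply, refl_rt_other h (Ne.symm hkp) (Ne.symm hlp),
        refl_apply_of_ortho ((polar_zero_iff h p v).2 (hzero p hp' hpb))])
    rw [← he] at hm
    exact mul_mono_cancel h hm hmM
  by_cases hfix : ∃ k, π k = k ∧ k ≠ p ∧ k ≠ q ∧ s k ≠ b₁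
  · obtain ⟨k, hk, hkp, hkq, hne⟩ := hfix
    exact hxfix k hkp hkq (hzero k hk hne)
  push Not at hfix
  have hsb : ∀ k, π k = k → s k = b₁ := fun k hk => by
    rcases eq_or_ne k p with rfl | hkp
    · exact hpb
    rcases eq_or_ne k q with rfl | hkq
    · rw [hαq, ← hαp, hpb]
    exact hfix k hk hkp hkq
  exfalso
  obtain ⟨l, hl⟩ : ∃ l, π l ≠ l := by
    by_contra hc
    push Not at hc
    have hall : ∀ i, (z : V ≃ₗ[F] V) (e i) = b₁ • e i := fun i => by rw [hπ, hsb i (hc i), hc i]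
    rcases sign_of_sq hb₁ with rfl | rfl
    · exact hz1 (h.orth_ext fun i => by rw [hall, one_smul]; rfl)
    · exact hi₀ (by rw [hall, neg_one_smul])
  set m := π l with hm
  have hzm' : π m = l ∧ s m = s l := by
    have h1 : (z : V ≃ₗ[F] V) ((z : V ≃ₗ[F] V) (e l)) = e l := by rw [← orth_mul_apply, hz2]; rfl
    rw [hπ, map_smul, hπ, smul_smul, ← hm] at h1
    have h2 := congrArg (coordAt Q e c l) h1
    rw [map_smul, h.coord_self, h.coord_vec, smul_eq_mul] at h2
    have hlm : l = π m := by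
      by_contra hne
      rw [if_neg hne, mul_zero] at h2
      exact zero_ne_one h2
    rw [if_pos hlm, mul_one] at h2
    exact ⟨hlm.symm, mul_left_cancel₀ (hs0 l) (h2.trans (hss l).symm)⟩
  have hlp : l ≠ p := fun he => hl (by rw [hm, he, hp'])
  have hlq : l ≠ q := fun he => hl (by rw [hm, he, hq'])
  have hlr : l ≠ r := fun he => hl (by rw [hm, he, hr'])
  have hmp : m ≠ p := fun he => hlp (π.injective (he.trans hp'.symm))
  have hmq : m ≠ q := fun he => hlq (π.injective (he.trans hq'.symm))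
  have hmr : m ≠ r := fun he => hlr (π.injective (he.trans hr'.symm))
  obtain ⟨n, hnp, hnq, hnr, hnl, hnm, hall⟩ : ∃ n : Fin 6, n ≠ p ∧ n ≠ q ∧ n ≠ r ∧ n ≠ l ∧ n ≠ m ∧
      ∀ k, k = p ∨ k = q ∨ k = r ∨ k = l ∨ k = m ∨ k = n := by
    obtain ⟨a, b, hab, huniv, ha, hb⟩ := exists_other_two' p q r l hpq hpr (Ne.symm hlp) hqr
      (Ne.symm hlq) (Ne.symm hlr)
    simp only [Finset.mem_insert, Finset.mem_singleton, not_or] at ha hb
    have hk : ∀ k : Fin 6, k = p ∨ k = q ∨ k = r ∨ k = l ∨ k = a ∨ k = b := fun k => by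
      have := Finset.mem_univ k
      rw [← huniv] at this
      simpa using this
    rcases hk m with h' | h' | h' | h' | h' | h'
    · exact absurd h' hmp
    · exact absurd h' hmq
    · exact absurd h' hmr
    · exact absurd h' hl
    · refine ⟨b, hb.1, hb.2.1, hb.2.2.1, hb.2.2.2, by rw [h']; exact Ne.symm hab, fun k => ?_⟩
      rcases hk k with h'' | h'' | h'' | h'' | h'' | h'' <;> simp [h'', h']
    · refine ⟨a, ha.1, ha.2.1, ha.2.2.1, ha.2.2.2, by rw [h']; exact hab, fun k => ?_⟩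
      rcases hk k with h'' | h'' | h'' | h'' | h'' | h'' <;> simp [h'', h']
  have hn' : π n = n := by
    rcases hall (π n) with h' | h' | h' | h' | h' | h'
    · exact absurd (π.injective (h'.trans hp'.symm)) hnp
    · exact absurd (π.injective (h'.trans hq'.symm)) hnq
    · exact absurd (π.injective (h'.trans hr'.symm)) hnr
    · exact absurd (π.injective (h'.trans hzm'.1.symm)) hnm
    · exact absurd (π.injective h') hnl
    · exact h'
  have hsl : (-s l) * (-s l) = 1 := by linear_combination hss l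
  have hlm : l ≠ m := fun he => hl he.symm
  set R := refl Q (rt e l m (-s l)) with hR
  have hRl : (R : V ≃ₗ[F] V) (e l) = (z : V ≃ₗ[F] V) (e l) := by
    rw [hR, refl_rt_left h hlm hsl, neg_neg, hπ]
  have hRm : (R : V ≃ₗ[F] V) (e m) = (z : V ≃ₗ[F] V) (e m) := by
    rw [hR, refl_rt_right h hlm hsl, neg_neg, hπ, hzm'.1, hzm'.2]
  have hRo : ∀ k, k ≠ l → k ≠ m → (R : V ≃ₗ[F] V) (e k) = e k := fun k h1 h2 => refl_rt_other h h1 h2 _
  have hzo : ∀ k, k = p ∨ k = q ∨ k = r ∨ k = n → (z : V ≃ₗ[F] V) (e k) = b₁ • e k := by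
    rintro k (rfl | rfl | rfl | rfl)
    · rw [hπ, hp', hsb _ hp']
    · rw [hπ, hq', hsb _ hq']
    · rw [hπ, hr', hsb _ hr']
    · rw [hπ, hn', hsb _ hn']
  have hdick : dick R = 1 := by
    rcases sign_of_sq hb₁ with rfl | rfl
    · rw [show R = z from h.orth_ext fun k => by
        rcases hall k with rfl | rfl | rfl | rfl | rfl | rfl
        · rw [hRo k (Ne.symm hlp) (Ne.symm hmp), hzo k (Or.inl rfl), one_smul]
        · rw [hRo k (Ne.symm hlq) (Ne.symm hmq), hzo k (Or.inr (Or.inl rfl)), one_smul]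
        · rw [hRo k (Ne.symm hlr) (Ne.symm hmr), hzo k (Or.inr (Or.inr (Or.inl rfl))), one_smul]
        · exact hRl
        · exact hRm
        · rw [hRo k hnl hnm, hzo k (Or.inr (Or.inr (Or.inr rfl))), one_smul]]
      exact dick_one_of_mem hB hzH
    · obtain ⟨hfp, hfq, hfo⟩ := flip_apply h hpq
      obtain ⟨hgr, hgn, hgo⟩ := flip_apply h (Ne.symm hnr)
      rw [show R = z * flipTwo Q e p q * flipTwo Q e r n from h.orth_ext fun k => by
        rw [orth_mul_apply, orth_mul_apply]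
        rcases hall k with rfl | rfl | rfl | rfl | rfl | rfl
        · rw [hRo k (Ne.symm hlp) (Ne.symm hmp), hgo k hpr (Ne.symm hnp), hfp, map_neg,
            hzo k (Or.inl rfl), neg_one_smul, neg_neg]
        · rw [hRo k (Ne.symm hlq) (Ne.symm hmq), hgo k hqr (Ne.symm hnq), hfq, map_neg,
            hzo k (Or.inr (Or.inl rfl)), neg_one_smul, neg_neg]
        · rw [hRo k (Ne.symm hlr) (Ne.symm hmr), hgr, map_neg, map_neg,
            hfo k (Ne.symm hpr) (Ne.symm hqr), hzo k (Or.inr (Or.inr (Or.inl rfl))), neg_one_smul, neg_neg]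
        · rw [hgo k hlr (Ne.symm hnl), hfo k hlp hlq]; exact hRl
        · rw [hgo m hmr (Ne.symm hnm), hfo m hmp hmq]; exact hRm
        · rw [hRo k hnl hnm, hgn, map_neg, map_neg, hfo k hnp hnq,
            hzo k (Or.inr (Or.inr (Or.inr rfl))), neg_one_smul, neg_neg]]
      exact dick_one_of_mem hB (mul_mem (mul_mem hzH (flip_mem' hB p q)) (flip_mem' hB r n))
  rw [hR, dick_refl h.nondeg (by rw [val_rt h hlm hsl]; exact h20)] at hdick
  exact absurd hdick (by decide)

/-- Elements fixing a root vector are monomial. -/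
theorem mono_of_fix_root (hB : Base Q e c H) {g : orth Q} (hg : g ∈ H) {p q : Fin 6} (hpq : p ≠ q)
    {σ : F} (hσ : σ * σ = 1) (hgf : (g : V ≃ₗ[F] V) (rt e p q σ) = rt e p q σ) : Mono e g := by
  classical
  have h := hB.frame
  have h20 := two_c_ne h
  have hA : ∀ r t, p ≠ r → p ≠ t → q ≠ r → q ≠ t → r ≠ t → ∀ κ : F, κ * κ = 1 →
      ∀ l, l ≠ p → l ≠ q → coordAt Q e c l ((g : V ≃ₗ[F] V) (rt e r t κ)) ≠ 0 →
        coordAt Q e c p ((g : V ≃ₗ[F] V) (rt e r t κ)) = 0 ∧
          coordAt Q e c q ((g : V ≃ₗ[F] V) (rt e r t κ)) = 0 := by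
    intro r t hpr hpt hqr hqt hrt κ hκ l hlp hlq hl
    set v := (g : V ≃ₗ[F] V) (rt e r t κ) with hv
    have hm := mono_root_pair hB hg hpq hpr hpt hqr hqt hrt hσ hκ hgf
    have hfv : polar Q (rt e p q σ) v = 0 := by
      rw [hv, ← hgf, orth_polar, polar_rt h, co_rt h, co_rt h]; simp [hpr, hpt, hqr, hqt]
    have happ : ((refl Q (rt e p q σ) * refl Q v : orth Q) : V ≃ₗ[F] V) (e l) =
        e l - coordAt Q e c l v • v := by
      rw [orth_mul_apply, refl_two h (by rw [hv, orth_map, val_rt h hrt hκ]), map_sub, map_smul,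
        refl_rt_other h hlp hlq, refl_apply_of_ortho hfv]
    have hrel : coordAt Q e c p v + σ * coordAt Q e c q v = 0 :=
      (mul_eq_zero.1 ((polar_rt h σ v).symm.trans hfv)).resolve_left h20
    by_contra hne
    have hp0 : coordAt Q e c p v ≠ 0 := fun h0 => hne ⟨h0, by
      rw [h0, zero_add] at hrel
      exact (mul_eq_zero.1 hrel).resolve_left (left_ne_zero_of_mul_eq_one hσ)⟩
    have hq0 : coordAt Q e c q v ≠ 0 := fun h0 => hp0 (by rw [h0, mul_zero, add_zero] at hrel; exact hrel)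
    refine mono_two h hm l hpq ?_ ?_ <;> rw [happ, map_sub, map_smul, h.coord_vec, smul_eq_mul]
    · rw [if_neg (Ne.symm hlp), zero_sub]; exact neg_ne_zero.2 (mul_ne_zero hl hp0)
    · rw [if_neg (Ne.symm hlq), zero_sub]; exact neg_ne_zero.2 (mul_ne_zero hl hq0)
  have hzero : ∀ r t, p ≠ r → p ≠ t → q ≠ r → q ≠ t → r ≠ t → ∀ κ : F, κ * κ = 1 →
      coordAt Q e c p ((g : V ≃ₗ[F] V) (rt e r t κ)) = 0 ∧
        coordAt Q e c q ((g : V ≃ₗ[F] V) (rt e r t κ)) = 0 := by
    intro r t hpr hpt hqr hqt hrt κ hκ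
    set v := (g : V ≃ₗ[F] V) (rt e r t κ) with hv
    by_cases hex : ∃ l, l ≠ p ∧ l ≠ q ∧ coordAt Q e c l v ≠ 0
    · obtain ⟨l, hlp, hlq, hl⟩ := hex
      exact hA r t hpr hpt hqr hqt hrt κ hκ l hlp hlq hl
    push Not at hex
    obtain ⟨s, hsp, hsq, hsr, hst⟩ := exists_outside p q r t
    set w := (g : V ≃ₗ[F] V) (rt e r s (1 : F)) with hw
    have hvw : polar Q v w = 2 * c := by
      rw [hv, hw, orth_polar, polar_rt h, co_rt h, co_rt h]
      simp [Ne.symm hsr, Ne.symm hrt, Ne.symm hst]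
    rw [h.polar_eq_sum, sum_two hpq _ (fun l h1 h2 => by rw [hex l h1 h2, zero_mul])] at hvw
    have hex' : ∀ l, l ≠ p → l ≠ q → coordAt Q e c l w = 0 := by
      intro l hlp hlq
      by_contra hl
      obtain ⟨e1, e2⟩ := hA r s hpr (Ne.symm hsp) hqr (Ne.symm hsq) (Ne.symm hsr) 1 (one_mul 1) l hlp hlq hl
      rw [← hw] at e1 e2
      rw [e1, e2, mul_zero, mul_zero, add_zero, mul_zero] at hvw
      exact h20 hvw.symm
    exfalso
    have hrel : ∀ (k : Fin 6) (κ' : F), p ≠ k → q ≠ k → r ≠ k → κ' * κ' = 1 →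
        (∀ l, l ≠ p → l ≠ q → coordAt Q e c l ((g : V ≃ₗ[F] V) (rt e r k κ')) = 0) →
        (g : V ≃ₗ[F] V) (rt e r k κ') = coordAt Q e c q ((g : V ≃ₗ[F] V) (rt e r k κ')) • ((-σ) • e p + e q) ∧
          coordAt Q e c q ((g : V ≃ₗ[F] V) (rt e r k κ')) * coordAt Q e c q ((g : V ≃ₗ[F] V) (rt e r k κ')) = 1 := by
      intro k κ' hpk hqk hrk hκ' h0
      set y := (g : V ≃ₗ[F] V) (rt e r k κ') with hy
      have hfy : polar Q (rt e p q σ) y = 0 := by
        rw [hy, ← hgf, orth_polar, polar_rt h, co_rt h, co_rt h]; simp [hpr, hpk, hqr, hqk]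
      have hyp := (mul_eq_zero.1 ((polar_rt h σ y).symm.trans hfy)).resolve_left h20
      refine ⟨?_, ?_⟩
      · conv_lhs => rw [eq_two h hpq h0, show coordAt Q e c p y = -(σ * coordAt Q e c q y) by
          linear_combination hyp]
        module
      · have h1 := sum_sq h (v := y) (t := 2) (by rw [hy, orth_map, val_rt h hrk hκ'])
        rw [sum_two hpq _ (fun l h1 h2 => by rw [h0 l h1 h2, zero_mul])] at h1
        exact mul_left_cancel₀ h.two_ne (by linear_combination h1 -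
          (coordAt Q e c p y - σ * coordAt Q e c q y) * hyp -
          (coordAt Q e c q y * coordAt Q e c q y) * hσ)
    obtain ⟨ev, hv2⟩ := hrel t κ hpt hqt hrt hκ hex
    obtain ⟨ew, hw2⟩ := hrel s 1 (Ne.symm hsp) (Ne.symm hsq) (Ne.symm hsr) (one_mul 1) hex'
    set A := coordAt Q e c q ((g : V ≃ₗ[F] V) (rt e r t κ))
    set B := coordAt Q e c q ((g : V ≃ₗ[F] V) (rt e r s (1 : F)))
    have heq : rt e r t κ = (A * B) • rt e r s (1 : F) := (g : V ≃ₗ[F] V).injective (by
      rw [map_smul, ev, ew, smul_smul, mul_assoc, hw2, mul_one])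
    have := congrArg (coordAt Q e c t) heq
    rw [map_smul, co_rt h, co_rt h] at this
    simp [Ne.symm hrt, Ne.symm hst, left_ne_zero_of_mul_eq_one hκ] at this
  have hsup : ∀ r, r ≠ p → r ≠ q → coordAt Q e c p ((g : V ≃ₗ[F] V) (e r)) = 0 ∧
      coordAt Q e c q ((g : V ≃ₗ[F] V) (e r)) = 0 := by
    intro r hrp hrq
    obtain ⟨t, htp, htq, htr, -⟩ := exists_outside p q r r
    obtain ⟨e1, e2⟩ := hzero r t (Ne.symm hrp) (Ne.symm htp) (Ne.symm hrq) (Ne.symm htq) (Ne.symm htr) 1
      (one_mul 1)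
    obtain ⟨e3, e4⟩ := hzero r t (Ne.symm hrp) (Ne.symm htp) (Ne.symm hrq) (Ne.symm htq) (Ne.symm htr) (-1)
      (by ring)
    simp only [rt, map_add, map_smul, smul_eq_mul] at e1 e2 e3 e4
    exact ⟨(mul_eq_zero.1 (show (2 : F) * _ = 0 by linear_combination e1 + e3)).resolve_left h.two_ne,
      (mul_eq_zero.1 (show (2 : F) * _ = 0 by linear_combination e2 + e4)).resolve_left h.two_ne⟩
  have h1 := mono_of_plane hB (inv_mem hg) hpq
    (fun l hlp hlq => by rw [co_inv h]; exact (hsup l hlp hlq).1)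
    (fun l hlp hlq => by rw [co_inv h]; exact (hsup l hlp hlq).2)
  simpa using Mono.inv h h1

end Cfsg.Agent.H66.Frame6
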