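import Cfsg.Agent.H66.Frame6.Fusion

/-!
An elementary abelian group of order 32 in `Ω` of a six-dimensional space is the group of sign
changes of an orthogonal frame.
-/

set_option autoImplicit false

namespace Cfsg.Agent.H66.Frame6

open QuadraticMap hiding sq
open Cfsg.Agent.H5

variable {F V : Type*} [Field F] [AddCommGroup V] [Module F V] {Q : QuadraticForm F V}

/-- Common eigenvectors of a commuting set of involutions span. -/
theorem span_signs_eq_top (h2 : (2 : F) ≠ 0) (S : Finset (orth Q))
    (hc : ∀ a ∈ S, ∀ b ∈ S, a * b = b * a) (hs : ∀ a ∈ S, a * a = 1) :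
    Submodule.span F {x : V | ∀ a ∈ S, (a : V ≃ₗ[F] V) x = x ∨ (a : V ≃ₗ[F] V) x = -x} = ⊤ := by
  classical
  induction S using Finset.induction_on with
  | empty => simp
  | insert a S ha ih =>
    have ih' := ih (fun x hx y hy => hc x (Finset.mem_insert_of_mem hx) y (Finset.mem_insert_of_mem hy))
      (fun x hx => hs x (Finset.mem_insert_of_mem hx))
    rw [eq_top_iff, ← ih', Submodule.span_le]
    intro x hx
    have hax : ∀ y : V, (a : V ≃ₗ[F] V) ((a : V ≃ₗ[F] V) y) = y := fun y => by
      rw [← orth_mul_apply, hs a (Finset.mem_insert_self a S)]; rfl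
    have key : ∀ t : F, t = 1 ∨ t = -1 →
        x + t • (a : V ≃ₗ[F] V) x ∈ {x : V | ∀ b ∈ insert a S,
          (b : V ≃ₗ[F] V) x = x ∨ (b : V ≃ₗ[F] V) x = -x} := by
      intro t ht b hb
      rcases Finset.mem_insert.1 hb with rfl | hb
      · rw [map_add, map_smul, hax]
        rcases ht with rfl | rfl
        · left; rw [one_smul, one_smul, add_comm]
        · right; simp [add_comm]
      · have hba : (b : V ≃ₗ[F] V) ((a : V ≃ₗ[F] V) x) = (a : V ≃ₗ[F] V) ((b : V ≃ₗ[F] V) x) := by
          rw [← orth_mul_apply, ← orth_mul_apply,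
            hc b (Finset.mem_insert_of_mem hb) a (Finset.mem_insert_self a S)]
        rcases hx b hb with h' | h'
        · left; rw [map_add, map_smul, hba, h']
        · right; rw [map_add, map_smul, hba, h', map_neg, smul_neg, neg_add]
    have : x = (2 : F)⁻¹ • ((x + (1 : F) • (a : V ≃ₗ[F] V) x) + (x + (-1 : F) • (a : V ≃ₗ[F] V) x)) := by
      rw [show (x + (1 : F) • (a : V ≃ₗ[F] V) x) + (x + (-1 : F) • (a : V ≃ₗ[F] V) x) = (2 : F) • x by
        module, smul_smul, inv_mul_cancel₀ h2, one_smul]
    rw [SetLike.mem_coe, this]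
    exact Submodule.smul_mem _ _ (add_mem (Submodule.subset_span (key 1 (Or.inl rfl)))
      (Submodule.subset_span (key (-1) (Or.inr rfl))))

variable [FiniteDimensional F V] [Finite F] [Finite V]

/-- The frame of an elementary abelian group of order 32. -/
theorem exists_frame_of_signs (hQ : (polarBilin Q).Nondegenerate) (h2 : (2 : F) ≠ 0)
    (hn : Module.finrank F V = 6) {E : Subgroup (orth Q)} (hE : E ≤ commutator (orth Q))
    (hc : ∀ a ∈ E, ∀ b ∈ E, a * b = b * a) (hs : ∀ a ∈ E, a * a = 1) (hcard : Nat.card E = 32) :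
    ∃ (e : Fin 6 → V) (c : F), OrthFrame Q e c ∧
      (∀ a ∈ E, ∀ i, (a : V ≃ₗ[F] V) (e i) = e i ∨ (a : V ≃ₗ[F] V) (e i) = -e i) ∧
      ∀ y ∈ commutator (orth Q),
        (∀ i, (y : V ≃ₗ[F] V) (e i) = e i ∨ (y : V ≃ₗ[F] V) (e i) = -e i) → y ∈ E := by
  classical
  have : Finite (orth Q) := finite_orth
  haveI : Fintype (orth Q) := Fintype.ofFinite _
  set S := Finset.univ.filter (fun a : orth Q => a ∈ E)
  set Eig : Set V := {x : V | ∀ a ∈ S, (a : V ≃ₗ[F] V) x = x ∨ (a : V ≃ₗ[F] V) x = -x}
  have hspan : Submodule.span F Eig = ⊤ := span_signs_eq_top h2 S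
    (fun a ha b hb => hc a (by simpa [S] using ha) b (by simpa [S] using hb))
    (fun a ha => hs a (by simpa [S] using ha))
  obtain ⟨B, hB, hBspan, hBli⟩ := exists_linearIndependent F Eig
  rw [hspan] at hBspan
  let b₀ : Module.Basis B F V :=
    Module.Basis.mk hBli (by rw [Subtype.range_coe_subtype, Set.setOf_mem_eq, hBspan])
  haveI : Fintype B := Fintype.ofFinite B
  have hBcard : Fintype.card B = 6 := by rw [← Module.finrank_eq_card_basis b₀, hn]
  let b : Module.Basis (Fin 6) F V := b₀.reindex (Fintype.equivFinOfCardEq hBcard)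
  have hsign : ∀ a ∈ E, ∀ i, (a : V ≃ₗ[F] V) (b i) = b i ∨ (a : V ≃ₗ[F] V) (b i) = -b i := by
    intro a ha i
    have h1 : (b i) ∈ Eig := by
      simp only [b, b₀, Module.Basis.reindex_apply, Module.Basis.mk_apply]
      exact hB (Subtype.coe_prop _)
    exact h1 a (by simp [S, ha])
  have hne : ∀ i, b i ≠ -b i := fun i he => b.ne_zero i (by
    have h0 : (2 : F) • b i = 0 := by linear_combination (norm := module) he
    exact (smul_eq_zero.1 h0).resolve_left h2)
  let χ : orth Q → Fin 6 → ℤˣ := fun a i => if (a : V ≃ₗ[F] V) (b i) = b i then 1 else -1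
  have hχ : ∀ a ∈ E, ∀ i, (a : V ≃ₗ[F] V) (b i) = ((χ a i : ℤ) : F) • b i := by
    intro a ha i
    simp only [χ]
    split_ifs with h'
    · simp [h']
    · simp [(hsign a ha i).resolve_left h']
  have hcast : ∀ u : ℤˣ, ((u : ℤ) : F) = 1 → u = 1 := by
    intro u hu
    rcases Int.units_eq_one_or u with rfl | rfl
    · rfl
    · exact absurd (show (2 : F) = 0 by simp at hu; linear_combination -hu) h2
  have hinj : Function.Injective (fun u : ℤˣ => ((u : ℤ) : F)) := by
    intro u v huv
    rcases Int.units_eq_one_or u with rfl | rfl <;> rcases Int.units_eq_one_or v with rfl | rfl <;>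
      first
        | rfl
        | exact absurd (show (2 : F) = 0 by simp at huv; linear_combination huv) h2
        | exact absurd (show (2 : F) = 0 by simp at huv; linear_combination -huv) h2
  let χh : E →* (Fin 6 → ℤˣ) :=
    MonoidHom.mk' (fun a => χ (a : orth Q)) fun a a' => funext fun i => by
      apply hinj
      refine smul_left_injective F (b.ne_zero i) ?_
      simp only [Pi.mul_apply, Units.val_mul, Int.cast_mul]
      rw [← hχ _ (a * a').2, Subgroup.coe_mul, orth_mul_apply, hχ _ a'.2, map_smul, hχ _ a.2,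
        smul_smul, mul_comm]
  have hχinj : Function.Injective χh := by
    intro a a' haa
    refine Subtype.ext (Subtype.ext (LinearEquiv.toLinearMap_injective (b.ext fun i => ?_)))
    change ((a : orth Q) : V ≃ₗ[F] V) (b i) = ((a' : orth Q) : V ≃ₗ[F] V) (b i)
    rw [hχ _ a.2, hχ _ a'.2, show χ (a : orth Q) i = χ (a' : orth Q) i from congrFun haa i]
  have hindex : χh.range.index = 2 := by
    have h1 := χh.range.card_mul_index
    rw [← Nat.card_congr (MonoidHom.ofInjective hχinj).toEquiv, hcard, Nat.card_eq_fintype_card,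
      Fintype.card_fun, Fintype.card_units_int, Fintype.card_fin] at h1
    omega
  -- a sign pattern outside the image
  let δ : Fin 6 → Fin 6 → ℤˣ := fun k i => if i = k then -1 else 1
  have hsame : ∀ a ∈ E, ∀ i j, polar Q (b i) (b j) ≠ 0 → χ a i = χ a j := by
    intro a ha i j hij
    have h1 := orth_polar a (b i) (b j)
    rw [hχ a ha, hχ a ha, polar_smul_left, polar_smul_right, smul_eq_mul, smul_eq_mul] at h1
    have h3 : ((χ a i : ℤ) : F) * ((χ a j : ℤ) : F) = 1 :=
      mul_right_cancel₀ hij (by linear_combination h1)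
    rw [← Int.cast_mul, ← Units.val_mul] at h3
    have := hcast _ h3
    calc χ a i = χ a i * (χ a j * χ a j) := by rw [Int.units_mul_self, mul_one]
      _ = χ a j := by rw [← mul_assoc, this, one_mul]
  have hδ : ∀ k, δ k ∉ χh.range := by
    rintro k ⟨⟨a, ha⟩, hak⟩
    have hχa : ∀ i, χ a i = δ k i := fun i => congrFun hak i
    have horth : ∀ j, j ≠ k → polar Q (b k) (b j) = 0 := by
      intro j hjk
      by_contra hne'
      have := hsame a ha k j hne'
      rw [hχa, hχa] at this
      simp [δ, hjk] at this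
    have hQk : Q (b k) ≠ 0 := by
      intro h0
      refine b.ne_zero k (hQ.1 _ fun y => ?_)
      rw [← b.sum_repr y, map_sum]
      refine Finset.sum_eq_zero fun j _ => ?_
      rw [map_smul, QuadraticMap.polarBilin_apply_apply]
      rcases eq_or_ne j k with rfl | hjk
      · rw [polar_self', h0, mul_zero, smul_zero]
      · rw [horth j hjk, smul_zero]
    have hrefl : a = refl Q (b k) := by
      refine Subtype.ext (LinearEquiv.toLinearMap_injective (b.ext fun i => ?_))
      change (a : V ≃ₗ[F] V) (b i) = (refl Q (b k) : V ≃ₗ[F] V) (b i)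
      rw [hχ a ha, hχa]
      rcases eq_or_ne i k with rfl | hik
      · rw [refl_apply_self hQk]; simp [δ]
      · rw [refl_apply_of_ortho (horth i hik)]; simp [δ, hik]
    have h1 := dick_eq_one_of_mem_commutator hQ (by omega) (hE ha)
    rw [hrefl, dick_refl hQ hQk] at h1
    exact absurd h1 (by decide)
  have hpair : ∀ i j, i ≠ j → ∃ a ∈ E, ∀ k, χ a k = δ i k * δ j k := by
    intro i j _
    obtain ⟨⟨a, ha⟩, hak⟩ := (Subgroup.mul_mem_iff_of_index_two hindex).2
      (iff_of_false (hδ i) (hδ j))
    exact ⟨a, ha, fun k => congrFun hak k⟩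
  have horth : ∀ i j, i ≠ j → polar Q (b i) (b j) = 0 := by
    intro i j hij
    by_contra hne'
    obtain ⟨k, -, -, hki, hkj, -, -, -, -⟩ := exists_other_two i j i
    obtain ⟨a, ha, hak⟩ := hpair i k (Ne.symm hki)
    have := hsame a ha i j hne'
    rw [hak, hak] at this
    simp [δ, Ne.symm hki, Ne.symm hkj, Ne.symm hij] at this
  have hQb : ∀ i, Q (b i) ≠ 0 := by
    intro k h0
    refine b.ne_zero k (hQ.1 _ fun y => ?_)
    rw [← b.sum_repr y, map_sum]
    refine Finset.sum_eq_zero fun j _ => ?_
    rw [map_smul, QuadraticMap.polarBilin_apply_apply]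
    rcases eq_or_ne j k with rfl | hjk
    · rw [polar_self', h0, mul_zero, smul_zero]
    · rw [horth k j (Ne.symm hjk), smul_zero]
  have hsq : ∀ i, IsSquare (Q (b 0) * Q (b i)) := by
    intro i
    rcases eq_or_ne i 0 with rfl | hi
    · exact ⟨Q (b 0), rfl⟩
    obtain ⟨a, ha, hak⟩ := hpair 0 i (Ne.symm hi)
    have hrefl : a = refl Q (b 0) * refl Q (b i) := by
      refine Subtype.ext (LinearEquiv.toLinearMap_injective (b.ext fun k => ?_))
      change (a : V ≃ₗ[F] V) (b k) = ((refl Q (b 0) * refl Q (b i) : orth Q) : V ≃ₗ[F] V) (b k)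
      rw [hχ a ha, hak, orth_mul_apply]
      rcases eq_or_ne k i with rfl | hki
      · rw [refl_apply_self (hQb k), map_neg, refl_apply_of_ortho (horth 0 k (Ne.symm hi))]
        simp [δ, hi]
      rw [refl_apply_of_ortho (horth i k (Ne.symm hki))]
      rcases eq_or_ne k 0 with rfl | hk0
      · rw [refl_apply_self (hQb 0)]; simp [δ, hki]
      · rw [refl_apply_of_ortho (horth 0 k (Ne.symm hk0))]; simp [δ, hki, hk0]
    have hmem := hE ha
    rw [hrefl] at hmem
    have h1 := (list_prod_mem_commutator_iff hQ (Or.inr (by omega)) (vs := [b 0, b i])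
      (by simp [hQb])).1 (by simpa using hmem)
    simpa using h1.2
  have hscale : ∀ i, ∃ t : F, t ≠ 0 ∧ t * t * Q (b i) = Q (b 0) := by
    intro i
    obtain ⟨r, hr⟩ := hsq i
    have hr0 : r ≠ 0 := fun h0 => mul_ne_zero (hQb 0) (hQb i) (by rw [hr, h0, mul_zero])
    refine ⟨r / Q (b i), div_ne_zero hr0 (hQb i), ?_⟩
    have := hQb i
    field_simp
    linear_combination -hr
  choose t ht0 ht using hscale
  refine ⟨fun i => t i • b i, Q (b 0), ⟨hQ, h2, hQb 0, fun i => ?_, fun hij => ?_, fun x => ?_⟩, ?_, ?_⟩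
  · rw [QuadraticMap.map_smul, smul_eq_mul, ht]
  · rw [polar_smul_left, polar_smul_right, horth _ _ hij, smul_zero, smul_zero]
  · conv_rhs => rw [← b.sum_repr x]
    refine Finset.sum_congr rfl fun i _ => ?_
    have h1 : polar Q (b i) x = b.repr x i * (2 * Q (b i)) := by
      conv_lhs => rw [← b.sum_repr x]
      rw [← QuadraticMap.polarBilin_apply_apply, map_sum, Finset.sum_eq_single i (fun j _ hj => by
        rw [map_smul, QuadraticMap.polarBilin_apply_apply, horth i j (Ne.symm hj), smul_zero]) (by simp),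
        map_smul, QuadraticMap.polarBilin_apply_apply, polar_self', smul_eq_mul]
    rw [smul_smul]
    congr 1
    simp only [coordAt, LinearMap.smul_apply, smul_eq_mul, QuadraticMap.polarBilin_apply_apply,
      polar_smul_left]
    rw [h1, ← ht i]
    have := hQb i; have := ht0 i
    field_simp
  · intro a ha i
    rcases hsign a ha i with h' | h'
    · left; rw [map_smul, h']
    · right; rw [map_smul, h', smul_neg]
  · intro y hy hdiag
    have hyb : ∀ i, (y : V ≃ₗ[F] V) (b i) = b i ∨ (y : V ≃ₗ[F] V) (b i) = -b i := fun i => by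
      have h0 := hdiag i
      simp only [map_smul, ← smul_neg] at h0
      exact h0.imp (fun h' => smul_right_injective V (ht0 i) h')
        (fun h' => smul_right_injective V (ht0 i) h')
    have hχy : ∀ i, (y : V ≃ₗ[F] V) (b i) = ((χ y i : ℤ) : F) • b i := fun i => by
      simp only [χ]
      split_ifs with h'
      · simp [h']
      · simp [(hyb i).resolve_left h']
    by_cases hmem : χ y ∈ χh.range
    · obtain ⟨⟨a, ha⟩, hak⟩ := hmem
      have : y = a := by
        refine Subtype.ext (LinearEquiv.toLinearMap_injective (b.ext fun i => ?_))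
        change (y : V ≃ₗ[F] V) (b i) = (a : V ≃ₗ[F] V) (b i)
        rw [hχy, hχ a ha, show χ a i = χ y i from congrFun hak i]
      rw [this]; exact ha
    · exfalso
      obtain ⟨⟨a, ha⟩, hak⟩ := (Subgroup.mul_mem_iff_of_index_two hindex).2
        (iff_of_false hmem (hδ 0))
      have hrefl : y⁻¹ * a = refl Q (b 0) := by
        refine Subtype.ext (LinearEquiv.toLinearMap_injective (b.ext fun i => ?_))
        change ((y⁻¹ * a : orth Q) : V ≃ₗ[F] V) (b i) = (refl Q (b 0) : V ≃ₗ[F] V) (b i)
        apply (y : V ≃ₗ[F] V).injective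
        rw [orth_mul_apply, orth_apply_inv_apply, hχ a ha,
          show χ a i = χ y i * δ 0 i from congrFun hak i]
        rcases eq_or_ne i 0 with rfl | hi
        · rw [refl_apply_self (hQb 0), map_neg, hχy]; simp [δ]
        · rw [refl_apply_of_ortho (horth 0 i (Ne.symm hi)), hχy]; simp [δ, hi]
      have h1 := dick_eq_one_of_mem_commutator hQ (by omega) (mul_mem (inv_mem hy) (hE ha))
      rw [hrefl, dick_refl hQ (hQb 0)] at h1
      exact absurd h1 (by decide)

end Cfsg.Agent.H66.Frame6
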