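import Cfsg.Agent.H66.Frame6.Signs
import Cfsg.Agent.H66.Frame6.Omega
import Cfsg.Agent.H5.FrameClass
import Cfsg.Prelude.Def_GeometricClasses

/-!
A group mapping onto `Ω` of a six-dimensional space: the normaliser of a subgroup covering an
elementary abelian group of order 32 is maximal.
-/

set_option autoImplicit false

namespace Cfsg.Agent.H66.Frame6

open QuadraticMap hiding sq
open Cfsg.Agent.H5

variable {F V : Type*} [Field F] [Fintype F] [AddCommGroup V] [Module F V] [FiniteDimensional F V]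
  [Finite V] {Q : QuadraticForm F V}

theorem exists_moving {e : Fin 6 → V} {c : F} (h : OrthFrame Q e c) :
    ∃ y ∈ commutator (orth Q), ¬ Mono e y := by
  have h2 := h.two_ne
  obtain ⟨α, β, hαβ⟩ := exists_sq_add (F := F) h2 (-1 : F)
  set p := α • e 0 + β • e 1 + (e 2 + e 3) with hp
  have hcp : ∀ l, coordAt Q e c l p = α * (if l = 0 then 1 else 0) +
      β * (if l = 1 then 1 else 0) + ((if l = 2 then 1 else 0) + (if l = 3 then 1 else 0)) :=
    fun l => by simp [hp, h.coord_vec]
  have hqp : Q p = c := by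
    rw [hp, QuadraticMap.map_add (⇑Q), map_smul_add_smul, h.val_add (by decide : (2 : Fin 6) ≠ 3),
      h.val, h.val, h.ortho (by decide : (0 : Fin 6) ≠ 1)]
    simp only [polar_add_left, polar_add_right, polar_smul_left,
      h.ortho (by decide : (0 : Fin 6) ≠ 2), h.ortho (by decide : (0 : Fin 6) ≠ 3),
      h.ortho (by decide : (1 : Fin 6) ≠ 2), h.ortho (by decide : (1 : Fin 6) ≠ 3), smul_eq_mul]
    linear_combination c * hαβ
  refine ⟨refl Q p * refl Q (e 4), pair_mem_commutator h (by rw [hqp]; exact h.ne_zero)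
    (by rw [hqp, h.val]), fun hm => ?_⟩
  refine mono_two h hm 2 (l := 2) (m := 3) (by decide) ?_ ?_ <;>
    rw [orth_mul_apply, h.refl_other (by decide : (4 : Fin 6) ≠ 2), refl_unit h hqp, map_sub, map_smul] <;>
    simp only [hcp, h.coord_vec]
  · simp
    intro h0
    exact one_ne_zero (show (1 : F) = 0 by linear_combination -h0)
  · simp [h2]

theorem eq_or_neg_of_flips {e : Fin 6 → V} {c : F} (h : OrthFrame Q e c) {x : V} (hx : Q x = c)
    (hsgn : ∀ i j, i ≠ j → (flipTwo Q e i j : V ≃ₗ[F] V) x = x ∨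
      (flipTwo Q e i j : V ≃ₗ[F] V) x = -x) :
    ∃ j, x = e j ∨ x = -e j := by
  obtain ⟨k, hk⟩ : ∃ k, coordAt Q e c k x ≠ 0 := by
    by_contra hc
    push Not at hc
    have := h.ext_coord (x := x) (y := 0) (fun i => by rw [hc, map_zero])
    rw [this, QuadraticMap.map_zero] at hx
    exact h.ne_zero hx.symm
  have hone : ∀ l, l ≠ k → coordAt Q e c l x = 0 := by
    intro l hlk
    by_contra hl
    obtain ⟨m, hmk, hml, -⟩ := exists_outside k l k l
    rcases hsgn k m (Ne.symm hmk) with h' | h'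
    · have := congrArg (coordAt Q e c k) h'
      rw [flip_co h (Ne.symm hmk), if_pos (Or.inl rfl)] at this
      exact hk (eq_zero_of_neg h this)
    · exact hl (supp_of_flip_neg h (Ne.symm hmk) h' l hlk (Ne.symm hml))
  have hx' := eq_one h hone
  have ht : coordAt Q e c k x * coordAt Q e c k x = 1 := by
    rw [hx', QuadraticMap.map_smul, h.val, smul_eq_mul] at hx
    exact mul_right_cancel₀ h.ne_zero (by rw [hx, one_mul])
  refine ⟨k, ?_⟩
  rcases sign_of_sq ht with h' | h'
  · left; rw [hx', h', one_smul]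
  · right; rw [hx', h', neg_one_smul]

/-- The normaliser of a cover of an elementary abelian group of order 32 is maximal. -/
theorem normalizer_maximal {G : Type*} [Group G] (hQ : (polarBilin Q).Nondegenerate)
    (h2 : (2 : F) ≠ 0) (hn : Module.finrank F V = 6) (hp : (Fintype.card F).Prime)
    (φ : G →* orth Q) (hrange : φ.range = commutator (orth Q)) (R : Subgroup G) (hker : φ.ker ≤ R)
    (hc : ∀ a ∈ R, ∀ b ∈ R, φ a * φ b = φ b * φ a) (hs : ∀ a ∈ R, φ a * φ a = 1)
    (hcard : Nat.card (R.map φ) = 32) :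
    Subgroup.normalizer (R : Set G) ≠ ⊤ ∧ ∀ M : Subgroup G, Subgroup.normalizer (R : Set G) ≤ M →
      M = Subgroup.normalizer (R : Set G) ∨ M = ⊤ := by
  classical
  have hEc : R.map φ ≤ commutator (orth Q) := hrange ▸ Subgroup.map_le_range φ R
  obtain ⟨e, c, h, hsgn, hdiag⟩ := exists_frame_of_signs hQ h2 hn hEc
    (by rintro _ ⟨a, ha, rfl⟩ _ ⟨b, hb, rfl⟩; exact hc a ha b hb)
    (by rintro _ ⟨a, ha, rfl⟩; exact hs a ha) hcard
  have hone : ∀ g : G, Mono e (φ g) → ∀ r ∈ R, g * r * g⁻¹ ∈ R := by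
    intro g hg r hr
    obtain ⟨π, s, hs', hπ⟩ := hg.exists_perm h
    have hy : φ (g * r * g⁻¹) ∈ R.map φ := by
      refine hdiag _ (hrange ▸ ⟨_, rfl⟩) fun i => ?_
      obtain ⟨k, rfl⟩ := π.surjective i
      have hgk : ((φ g)⁻¹ : orth Q).1 (e (π k)) = s k • e k := by
        apply ((φ g : orth Q) : V ≃ₗ[F] V).injective
        rw [orth_apply_inv_apply, map_smul, hπ, smul_smul, sq_one (hs' k), one_smul]
      rw [map_mul, map_mul, map_inv, orth_mul_apply, orth_mul_apply, hgk, map_smul]
      rcases hsgn (φ r) (Subgroup.mem_map_of_mem φ hr) k with h' | h'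
      · left
        rw [h', map_smul, hπ, smul_smul, sq_one (hs' k), one_smul]
      · right
        rw [h', smul_neg, map_neg, map_smul, hπ, smul_smul, sq_one (hs' k), one_smul]
    obtain ⟨r', hr', he⟩ := hy
    have hk : r'⁻¹ * (g * r * g⁻¹) ∈ φ.ker := by
      rw [MonoidHom.mem_ker, map_mul, map_inv, he, inv_mul_cancel]
    simpa using mul_mem hr' (hker hk)
  have hnorm : ∀ g : G, Mono e (φ g) → g ∈ Subgroup.normalizer (R : Set G) := fun g hg =>
    Subgroup.mem_normalizer_iff.2 fun r => ⟨hone g hg r, fun hr => by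
      have h1 := hone g⁻¹ (by rw [map_inv]; exact hg.inv h) _ hr
      simpa [mul_assoc] using h1⟩
  have hmono : ∀ g ∈ Subgroup.normalizer (R : Set G), Mono e (φ g) := by
    intro g hg k
    refine eq_or_neg_of_flips h (by rw [orth_map, h.val]) fun i j hij => ?_
    have hflip : flipTwo Q e i j ∈ R.map φ := hdiag _ (h.flip_mem (by omega)) fun l => by
      obtain ⟨ha, hb, ho⟩ := flip_apply h hij
      rcases eq_or_ne l i with rfl | hli
      · exact Or.inr ha
      rcases eq_or_ne l j with rfl | hlj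
      · exact Or.inr hb
      exact Or.inl (ho l hli hlj)
    obtain ⟨r, hr, he⟩ := hflip
    have hr' : g⁻¹ * r * g ∈ R := by
      have h1 := (Subgroup.mem_normalizer_iff.1 (inv_mem hg) r).1 hr
      simpa using h1
    rcases hsgn _ (Subgroup.mem_map_of_mem φ hr') k with h' | h'
    · left
      rw [← he, ← orth_mul_apply, ← map_mul, show r * g = g * (g⁻¹ * r * g) by group, map_mul,
        orth_mul_apply, h']
    · right
      rw [← he, ← orth_mul_apply, ← map_mul, show r * g = g * (g⁻¹ * r * g) by group, map_mul,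
        orth_mul_apply, h', map_neg]
  refine ⟨fun htop => ?_, fun M hM => ?_⟩
  · obtain ⟨y, hy, hnm⟩ := exists_moving h
    obtain ⟨g, rfl⟩ : y ∈ φ.range := by rw [hrange]; exact hy
    exact hnm (hmono g (htop ▸ Subgroup.mem_top g))
  have hker' : φ.ker ≤ M := hker.trans (Subgroup.le_normalizer.trans hM)
  have hH : M.map φ ≤ commutator (orth Q) := hrange ▸ Subgroup.map_le_range φ M
  rcases mono_or_commutator_le h hp hH (fun y hy hym => by
      obtain ⟨g, rfl⟩ : y ∈ φ.range := by rw [hrange]; exact hy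
      exact Subgroup.mem_map_of_mem φ (hM (hnorm g hym))) with h' | h'
  · exact Or.inl (le_antisymm (fun g hg => hnorm g (h' _ (Subgroup.mem_map_of_mem φ hg))) hM)
  · refine Or.inr (eq_top_iff.2 fun g _ => ?_)
    obtain ⟨m, hm, he⟩ := h' (hrange ▸ ⟨g, rfl⟩ : φ g ∈ commutator (orth Q))
    have hk : m⁻¹ * g ∈ φ.ker := by rw [MonoidHom.mem_ker, map_mul, map_inv, he, inv_mul_cancel]
    simpa using mul_mem hm (hker' hk)

/-- The group in a linear group covering the images. -/
theorem isMaximalIn_normalizer {G G' : Type*} [Group G] [Group G'] (hQ : (polarBilin Q).Nondegenerate)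
    (h2 : (2 : F) ≠ 0) (hn : Module.finrank F V = 6) (hp : (Fintype.card F).Prime)
    (ι : G →* G') (hι : Function.Injective ι) {S : Subgroup G'} (hS : ι.range = S)
    (φ : G →* orth Q) (hrange : φ.range = commutator (orth Q)) (R : Subgroup G') (hR : R ≤ S)
    (hker : φ.ker ≤ R.comap ι) (hc : ∀ a b : G, ι a ∈ R → ι b ∈ R → φ a * φ b = φ b * φ a)
    (hs : ∀ a : G, ι a ∈ R → φ a * φ a = 1) (hcard : Nat.card ((R.comap ι).map φ) = 32) :
    Cfsg.Geo.IsMaximalIn S (Subgroup.normalizer (R : Set G') ⊓ S) := by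
  obtain ⟨hne, hmax⟩ := normalizer_maximal hQ h2 hn hp φ hrange (R.comap ι) hker
    (fun a ha b hb => hc a b ha hb) (fun a ha => hs a ha) hcard
  have hN : Subgroup.normalizer ((R.comap ι : Subgroup G) : Set G) =
      (Subgroup.normalizer (R : Set G')).comap ι := by
    ext g
    simp only [Subgroup.mem_comap, Subgroup.mem_normalizer_iff, map_mul, map_inv]
    refine ⟨fun hg r => ?_, fun hg r => hg (ι r)⟩
    constructor
    · intro hr
      obtain ⟨r₀, rfl⟩ : r ∈ ι.range := hS ▸ hR hr
      exact (hg r₀).1 hr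
    · intro hr
      have hgS : ι g ∈ S := hS ▸ ⟨g, rfl⟩
      have hrS : r ∈ S := by
        have := mul_mem (mul_mem (inv_mem hgS) (hR hr)) hgS
        simpa [mul_assoc] using this
      obtain ⟨r₀, rfl⟩ : r ∈ ι.range := hS ▸ hrS
      exact (hg r₀).2 hr
  refine ⟨lt_of_le_of_ne inf_le_right fun he => hne ?_, fun M hM hMS => ?_⟩
  · rw [hN, eq_top_iff]
    intro g _
    have : ι g ∈ S := hS ▸ ⟨g, rfl⟩
    rw [← he] at this
    exact this.1
  have hle : Subgroup.normalizer ((R.comap ι : Subgroup G) : Set G) ≤ M.comap ι := by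
    rw [hN]; exact fun g hg => hM ⟨hg, hS ▸ ⟨g, rfl⟩⟩
  rcases hmax _ hle with h' | h'
  · left
    refine le_antisymm (fun x hx => ?_) hM
    obtain ⟨g, rfl⟩ : x ∈ ι.range := hS ▸ hMS hx
    have : g ∈ M.comap ι := hx
    rw [h', hN] at this
    exact ⟨this, hMS hx⟩
  · right
    refine le_antisymm hMS fun x hx => ?_
    obtain ⟨g, rfl⟩ : x ∈ ι.range := hS ▸ hx
    have : g ∈ M.comap ι := h' ▸ Subgroup.mem_top g
    exact this

end Cfsg.Agent.H66.Frame6
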